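import Mathlib
import Cfsg.Agent.Lib.PGroup.SuzukiTwo.CW

set_option autoImplicit false
set_option linter.unusedSectionVars false
set_option linter.unusedVariables false
set_option linter.style.haveILetI false

namespace Cfsg.Agent.Lib.AllInv

section Quad

variable {E W : Type*} [AddCommGroup E] [Module (ZMod 2) E] [Finite E]
  [AddCommGroup W] [Module (ZMod 2) W] [Finite W]

/-- The sign character of `ZMod 2`. -/
def chi (a : ZMod 2) : ℤ := if a = 0 then 1 else -1

lemma chi_add (a b : ZMod 2) : chi (a + b) = chi a * chi b := by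
  revert a b
  decide

lemma chi_zero : chi 0 = 1 := rfl
lemma chi_one : chi 1 = -1 := rfl

lemma chi_self_mul (a : ZMod 2) : chi a * chi a = 1 := by
  revert a
  decide

lemma zmod2_eq_one {a : ZMod 2} (h : a ≠ 0) : a = 1 := by
  revert a
  decide

lemma two_add (x : W) : x + x = 0 := by
  have : (2 : ZMod 2) • x = 0 := by
    rw [show (2 : ZMod 2) = 0 from rfl, zero_smul]
  rw [two_smul] at this
  exact this

/-- The character sum over `W`. -/
lemma sum_chi_W [Fintype W] (ℓ : W →ₗ[ZMod 2] ZMod 2) (hℓ : ℓ ≠ 0) : ∑ v : W, chi (ℓ v) = 0 := by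
  obtain ⟨w₀, hw₀⟩ : ∃ w₀, ℓ w₀ ≠ 0 := by
    by_contra hc
    push Not at hc
    exact hℓ (LinearMap.ext hc)
  have hw1 : ℓ w₀ = 1 := zmod2_eq_one hw₀
  have h1 : ∑ v : W, chi (ℓ (v + w₀)) = ∑ v : W, chi (ℓ v) :=
    Equiv.sum_comp (Equiv.addRight w₀) (fun v => chi (ℓ v))
  have h2 : ∑ v : W, chi (ℓ (v + w₀)) = - ∑ v : W, chi (ℓ v) := by
    rw [← Finset.sum_neg_distrib]
    apply Finset.sum_congr rfl
    intro v _
    rw [map_add, chi_add, hw1, chi_one]
    ring
  linarith

/-- The data of an anisotropic quadratic map. -/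
structure QData (q : E → W) (β : E → E → W) : Prop where
  q_eq : ∀ x, q x = 0 ↔ x = 0
  polar : ∀ a b, q (a + b) = q a + q b + β a b
  add_l : ∀ a a' b, β (a + a') b = β a b + β a' b
  add_r : ∀ a b b', β a (b + b') = β a b + β a b'

namespace QData

variable {q : E → W} {β : E → E → W} (h : QData q β)
include h

lemma q_zero : q 0 = 0 := (h.q_eq 0).2 rfl

lemma bil_self (a : E) : β a a = 0 := by
  have h1 := h.polar a a
  rw [two_add a, h.q_zero, two_add (q a), zero_add] at h1
  exact h1.symm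

lemma bil_symm (a b : E) : β a b = β b a := by
  have h1 := h.polar a b
  have h2 := h.polar b a
  rw [add_comm a b, h2, add_comm (q b) (q a)] at h1
  exact (add_left_cancel h1).symm

lemma bil_zero_l (b : E) : β 0 b = 0 := by
  have := h.add_l 0 0 b
  simpa using this

lemma bil_zero_r (a : E) : β a 0 = 0 := by
  have := h.add_r a 0 0
  simpa using this

/-- Cardinality equation. -/
lemma card_eq [Fintype E] [Fintype W] [DecidableEq W] (k : ℕ)
    (hk : ∀ v : W, v ≠ 0 → (Finset.univ.filter (fun x => q x = v)).card = k) :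
    Fintype.card E = 1 + (Fintype.card W - 1) * k := by
  classical
  have h0 : (Finset.univ.filter (fun x => q x = 0)).card = 1 := by
    rw [Finset.card_eq_one]
    refine ⟨0, ?_⟩
    ext x
    simp [h.q_eq]
  have h1 := Finset.card_eq_sum_card_fiberwise (s := (Finset.univ : Finset E)) (t := (Finset.univ : Finset W))
    (f := q) (fun x _ => Finset.mem_coe.2 (Finset.mem_univ _))
  rw [Finset.card_univ] at h1
  rw [h1, ← Finset.add_sum_erase _ _ (Finset.mem_univ (0 : W)), h0]
  congr 1
  rw [Finset.sum_congr rfl (fun v hv => hk v (Finset.ne_of_mem_erase hv))]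
  simp [Finset.card_erase_of_mem]

/-- The Gauss sum. -/
lemma gauss_eq [Fintype E] [Fintype W] [DecidableEq W] (k : ℕ)
    (hk : ∀ v : W, v ≠ 0 → (Finset.univ.filter (fun x => q x = v)).card = k)
    (ℓ : W →ₗ[ZMod 2] ZMod 2) (hℓ : ℓ ≠ 0) :
    ∑ e : E, chi (ℓ (q e)) = 1 - k := by
  classical
  have h0 : (Finset.univ.filter (fun x => q x = 0)).card = 1 := by
    rw [Finset.card_eq_one]
    refine ⟨0, ?_⟩
    ext x
    simp [h.q_eq]
  have h1 : ∑ e : E, chi (ℓ (q e)) = ∑ v : W, ((Finset.univ.filter (fun x => q x = v)).card : ℤ) * chi (ℓ v) := by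
    rw [← Finset.sum_fiberwise (Finset.univ : Finset E) q (fun e => chi (ℓ (q e)))]
    apply Finset.sum_congr rfl
    intro v _
    rw [Finset.sum_congr rfl (g := fun _ => chi (ℓ v))]
    · simp
    · intro x hx
      rw [(Finset.mem_filter.1 hx).2]
  rw [h1, ← Finset.add_sum_erase _ _ (Finset.mem_univ (0 : W)), h0]
  have h2 : ∑ v ∈ Finset.univ.erase (0 : W), ((Finset.univ.filter (fun x => q x = v)).card : ℤ) * chi (ℓ v)
      = k * ∑ v ∈ Finset.univ.erase (0 : W), chi (ℓ v) := by
    rw [Finset.mul_sum]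
    apply Finset.sum_congr rfl
    intro v hv
    rw [hk v (Finset.ne_of_mem_erase hv)]
  have h3 := sum_chi_W ℓ hℓ
  rw [← Finset.add_sum_erase _ _ (Finset.mem_univ (0 : W)), map_zero, chi_zero] at h3
  rw [h2, map_zero, chi_zero]
  have h4 : ∑ v ∈ Finset.univ.erase (0 : W), chi (ℓ v) = -1 := by linarith
  rw [h4]
  push_cast
  ring

/-- The square of the Gauss sum. -/
lemma gauss_sq [Fintype E] [DecidableEq E] (ℓ : W →ₗ[ZMod 2] ZMod 2) :
    (∑ e : E, chi (ℓ (q e))) ^ 2 = (Fintype.card E : ℤ) *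
      ∑ i ∈ Finset.univ.filter (fun i : E => ∀ e : E, ℓ (β e i) = 0), chi (ℓ (q i)) := by
  classical
  have h1 : (∑ e : E, chi (ℓ (q e))) ^ 2 =
      ∑ i : E, chi (ℓ (q i)) * ∑ e : E, chi (ℓ (β e i)) := by
    rw [sq, Finset.sum_mul_sum]
    have h2 : ∀ e : E, ∑ e' : E, chi (ℓ (q e)) * chi (ℓ (q e')) =
        ∑ i : E, chi (ℓ (q e)) * chi (ℓ (q (e + i))) := by
      intro e
      exact (Equiv.sum_comp (Equiv.addLeft e) (fun e' => chi (ℓ (q e)) * chi (ℓ (q e')))).symm
    rw [Finset.sum_congr rfl (fun e _ => h2 e), Finset.sum_comm]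
    apply Finset.sum_congr rfl
    intro i _
    rw [Finset.mul_sum]
    apply Finset.sum_congr rfl
    intro e _
    rw [h.polar, map_add, map_add, chi_add, chi_add]
    have := chi_self_mul (ℓ (q e))
    calc chi (ℓ (q e)) * (chi (ℓ (q e)) * chi (ℓ (q i)) * chi (ℓ (β e i)))
        = (chi (ℓ (q e)) * chi (ℓ (q e))) * (chi (ℓ (q i)) * chi (ℓ (β e i))) := by ring
      _ = _ := by rw [this, one_mul]
  have h3 : ∀ i : E, ∑ e : E, chi (ℓ (β e i)) =
      if ∀ e : E, ℓ (β e i) = 0 then (Fintype.card E : ℤ) else 0 := by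
    intro i
    split_ifs with hi
    · rw [Finset.sum_congr rfl (g := fun _ => (1 : ℤ))]
      · simp
      · intro e _
        rw [hi e, chi_zero]
    · push Not at hi
      obtain ⟨e₀, he₀⟩ := hi
      have he1 : ℓ (β e₀ i) = 1 := zmod2_eq_one he₀
      have h4 : ∑ e : E, chi (ℓ (β (e + e₀) i)) = ∑ e : E, chi (ℓ (β e i)) :=
        Equiv.sum_comp (Equiv.addRight e₀) (fun e => chi (ℓ (β e i)))
      have h5 : ∑ e : E, chi (ℓ (β (e + e₀) i)) = - ∑ e : E, chi (ℓ (β e i)) := by
        rw [← Finset.sum_neg_distrib]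
        apply Finset.sum_congr rfl
        intro e _
        rw [h.add_l, map_add, chi_add, he1, chi_one]
        ring
      linarith
  rw [h1, Finset.sum_filter, Finset.mul_sum]
  apply Finset.sum_congr rfl
  intro i _
  rw [h3 i]
  split_ifs with hi
  · ring
  · ring

/-- The radical sum. -/
lemma rad_sum [Fintype E] [DecidableEq E] (ℓ : W →ₗ[ZMod 2] ZMod 2) :
    (∑ i ∈ Finset.univ.filter (fun i : E => ∀ e : E, ℓ (β e i) = 0), chi (ℓ (q i))) = 0 ∨
    (∑ i ∈ Finset.univ.filter (fun i : E => ∀ e : E, ℓ (β e i) = 0), chi (ℓ (q i))) =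
      ((Finset.univ.filter (fun i : E => ∀ e : E, ℓ (β e i) = 0)).card : ℤ) := by
  classical
  set R := Finset.univ.filter (fun i : E => ∀ e : E, ℓ (β e i) = 0) with hR
  have hmem : ∀ i, i ∈ R ↔ ∀ e : E, ℓ (β e i) = 0 := by
    intro i
    simp [hR]
  by_cases hq : ∀ i ∈ R, ℓ (q i) = 0
  · right
    rw [Finset.sum_congr rfl (g := fun _ => (1 : ℤ))]
    · simp
    · intro i hi
      rw [hq i hi, chi_zero]
  · left
    push Not at hq
    obtain ⟨h₀, hh₀, hq₀⟩ := hq
    have hq1 : ℓ (q h₀) = 1 := zmod2_eq_one hq₀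
    have hR0 := (hmem h₀).1 hh₀
    have hclosed : ∀ i ∈ R, i + h₀ ∈ R := by
      intro i hi
      rw [hmem] at hi ⊢
      intro e
      rw [h.add_r, map_add, hi e, hR0 e, add_zero]
    have h1 : ∑ i ∈ R, chi (ℓ (q (i + h₀))) = ∑ i ∈ R, chi (ℓ (q i)) := by
      apply Finset.sum_nbij' (fun i => i + h₀) (fun i => i + h₀)
      · exact hclosed
      · exact hclosed
      · intro i _
        simp only [add_assoc, two_add h₀, add_zero]
      · intro i _
        simp only [add_assoc, two_add h₀, add_zero]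
      · intro i _
        rfl
    have h2 : ∑ i ∈ R, chi (ℓ (q (i + h₀))) = - ∑ i ∈ R, chi (ℓ (q i)) := by
      rw [← Finset.sum_neg_distrib]
      apply Finset.sum_congr rfl
      intro i _
      rw [h.polar, map_add, map_add, hq1, hR0 i, chi_add, chi_add, chi_one, chi_zero]
      ring
    linarith

/-- The main lemma. -/
theorem main_nondeg [Fintype E] [Fintype W] [DecidableEq W] [DecidableEq E] (k : ℕ)
    (hk : ∀ v : W, v ≠ 0 → (Finset.univ.filter (fun x => q x = v)).card = k)
    (hk1 : 1 < k) (hW : 2 < Fintype.card W) :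
    Fintype.card E = (Fintype.card W) ^ 2 ∧ ∀ i : E, i ≠ 0 → ∀ w : W, ∃ e : E, β e i = w := by
  classical
  have hcard := h.card_eq k hk
  have hCW : Fintype.card E ≤ (Fintype.card W) ^ 2 := by
    by_contra hc
    push Not at hc
    have hB : ∀ u u' w : E, q (u + u' + w) + q (u + u') + q w =
        (q (u + w) + q u + q w) + (q (u' + w) + q u' + q w) := by
      intro u u' w
      have e1 := h.polar (u + u') w
      have e2 := h.polar u w
      have e3 := h.polar u' w
      have e4 := h.add_l u u' w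
      rw [e1, e2, e3, e4]
      have t1 := two_add (q u)
      have t2 := two_add (q w)
      have t3 := two_add (q u')
      have t4 := two_add (q (u + u'))
      abel_nf
      have t5 : ∀ x : W, (2 : ℤ) • x = 0 := fun x => by
        rw [two_smul, two_add]
      have t6 : ∀ x : W, (4 : ℤ) • x = 0 := fun x => by
        rw [show (4 : ℤ) = 2 + 2 by norm_num, add_smul, t5, add_zero]
      simp only [t5, t6, add_zero, zero_add]
    obtain ⟨v, hv0, hv⟩ := Cfsg.Agent.Lib.PGroup.SuzukiTwo.cw_quad q h.q_zero hB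
      (by rwa [Nat.card_eq_fintype_card, Nat.card_eq_fintype_card])
    exact hv0 ((h.q_eq v).1 hv)
  set c := Fintype.card W with hc
  have hmain : ∀ ℓ : W →ₗ[ZMod 2] ZMod 2, ℓ ≠ 0 →
      ((k : ℤ) - 1) ^ 2 = (Fintype.card E : ℤ) *
        ((Finset.univ.filter (fun i : E => ∀ e : E, ℓ (β e i) = 0)).card : ℤ) := by
    intro ℓ hℓ
    have h1 := h.gauss_eq k hk ℓ hℓ
    have h2 := h.gauss_sq ℓ
    rw [h1] at h2
    rcases h.rad_sum ℓ with h3 | h3
    · rw [h3, mul_zero] at h2
      exfalso
      have h4 : (1 : ℤ) - k = 0 := by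
        have := pow_eq_zero_iff (n := 2) (by norm_num) |>.1 h2
        exact this
      have h5 : (k : ℤ) = 1 := by linarith
      have h6 : k = 1 := by exact_mod_cast h5
      omega
    · rw [h3] at h2
      rw [← h2]
      ring
  -- integers
  have hc2 : (c : ℤ) ≥ 3 := by
    have : 3 ≤ c := hW
    exact_mod_cast this
  have hk2 : (k : ℤ) ≥ 2 := by exact_mod_cast hk1
  have hEz : (Fintype.card E : ℤ) = 1 + ((c : ℤ) - 1) * k := by
    rw [hcard]
    have : 1 ≤ c := by omega
    push_cast [Nat.cast_sub this]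
    ring
  have hCWz : (Fintype.card E : ℤ) ≤ (c : ℤ) ^ 2 := by exact_mod_cast hCW
  have hkle : (k : ℤ) ≤ c + 1 := by
    by_contra hlt
    push Not at hlt
    have : ((c : ℤ) - 1) * (c + 1) < ((c : ℤ) - 1) * k :=
      mul_lt_mul_of_pos_left hlt (by linarith)
    rw [hEz] at hCWz
    nlinarith
  have hrad : ∀ ℓ : W →ₗ[ZMod 2] ZMod 2, ℓ ≠ 0 →
      (Finset.univ.filter (fun i : E => ∀ e : E, ℓ (β e i) = 0)).card ≤ 1 := by
    intro ℓ hℓ
    by_contra hge
    push Not at hge
    have hge' : ((Finset.univ.filter (fun i : E => ∀ e : E, ℓ (β e i) = 0)).card : ℤ) ≥ 2 := by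
      exact_mod_cast hge
    have h1 := hmain ℓ hℓ
    have h2 : (Fintype.card E : ℤ) * 2 ≤ (Fintype.card E : ℤ) *
        ((Finset.univ.filter (fun i : E => ∀ e : E, ℓ (β e i) = 0)).card : ℤ) :=
      mul_le_mul_of_nonneg_left hge' (by positivity)
    rw [← h1, hEz] at h2
    nlinarith
  obtain ⟨ℓ₀, hℓ₀⟩ : ∃ ℓ : W →ₗ[ZMod 2] ZMod 2, ℓ ≠ 0 := by
    have hWnt : Nontrivial W := Fintype.one_lt_card_iff_nontrivial.1 (by omega)
    obtain ⟨ℓ, hℓ, -⟩ := Submodule.exists_le_ker_of_lt_top (⊥ : Submodule (ZMod 2) W) bot_lt_top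
    exact ⟨ℓ, hℓ⟩
  constructor
  · -- `k = c + 1`
    have h1 := hmain ℓ₀ hℓ₀
    have h2 := hrad ℓ₀ hℓ₀
    have h3 : 0 ∈ Finset.univ.filter (fun i : E => ∀ e : E, ℓ₀ (β e i) = 0) := by
      simp [h.bil_zero_r]
    have h4 : (Finset.univ.filter (fun i : E => ∀ e : E, ℓ₀ (β e i) = 0)).card = 1 :=
      le_antisymm h2 (Finset.card_pos.2 ⟨0, h3⟩)
    rw [h4, hEz] at h1
    push_cast at h1
    have h5 : ((k : ℤ) - (c + 1)) * k = 0 := by nlinarith
    have h6 : (k : ℤ) = c + 1 := by
      rcases mul_eq_zero.1 h5 with h7 | h7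
      · linarith
      · exfalso
        linarith
    have h7 : (Fintype.card E : ℤ) = (c : ℤ) ^ 2 := by
      rw [hEz, h6]
      ring
    exact_mod_cast h7
  · intro i hi w
    by_contra hcon
    push Not at hcon
    -- the additive map
    let f : E →+ W := AddMonoidHom.mk' (fun e => β e i) (fun a b => h.add_l a b i)
    let f' : E →ₗ[ZMod 2] W := f.toZModLinearMap 2
    have hf' : ∀ e, f' e = β e i := fun e => rfl
    have hlt : LinearMap.range f' < ⊤ := by
      rw [lt_top_iff_ne_top]
      intro htop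
      have : w ∈ LinearMap.range f' := by rw [htop]; trivial
      obtain ⟨e, he⟩ := this
      exact hcon e (by rw [← hf', he])
    obtain ⟨ℓ, hℓ, hle⟩ := Submodule.exists_le_ker_of_lt_top _ hlt
    have h1 := hrad ℓ hℓ
    have h2 : (0 : E) ∈ Finset.univ.filter (fun i : E => ∀ e : E, ℓ (β e i) = 0) := by
      simp [h.bil_zero_r]
    have h3 : i ∈ Finset.univ.filter (fun i : E => ∀ e : E, ℓ (β e i) = 0) := by
      simp only [Finset.mem_filter, Finset.mem_univ, true_and]
      intro e
      have h4 : f' e ∈ LinearMap.ker ℓ := hle (LinearMap.mem_range_self f' e)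
      rw [LinearMap.mem_ker, hf'] at h4
      exact h4
    have h5 := Finset.card_le_one.1 h1 _ h2 _ h3
    exact hi h5.symm

end QData

end Quad

section Unique

variable {E W : Type*} [AddCommGroup E] [Module (ZMod 2) E] [Finite E]
  [AddCommGroup W] [Module (ZMod 2) W] [Finite W]

lemma card_ker_mul_range [Fintype E] [DecidableEq E] {A : Type*} [AddCommGroup A] [Fintype A] [DecidableEq A] (f : E →+ A) :
    (Finset.univ.filter (fun e => f e = 0)).card * (Finset.univ.image f).card = Fintype.card E := by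
  classical
  have h1 := AddSubgroup.card_mul_index f.ker
  rw [AddSubgroup.index_ker] at h1
  have h2 : Nat.card f.ker = (Finset.univ.filter (fun e => f e = 0)).card := by
    rw [← Nat.card_eq_finsetCard]
    exact Nat.card_congr (Equiv.subtypeEquivRight (fun x => by simp [AddMonoidHom.mem_ker]))
  have h3 : Nat.card f.range = (Finset.univ.image f).card := by
    rw [← Nat.card_eq_finsetCard]
    exact Nat.card_congr (Equiv.subtypeEquivRight (fun x => by simp [AddMonoidHom.mem_range]))
  rw [← h2, ← h3, h1, Nat.card_eq_fintype_card]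

namespace QData

variable {q : E → W} {β : E → E → W} (h : QData q β)
include h

lemma invol_props [Fintype E] [Fintype W] [DecidableEq E] [DecidableEq W]
    (hcard : Fintype.card E = (Fintype.card W) ^ 2)
    (hsurj : ∀ i : E, i ≠ 0 → ∀ w : W, ∃ e : E, β e i = w)
    (D : Finset E) (hD : Fintype.card W ≤ D.card)
    (y : E →+ E) (hy : ∀ e, y (y e) = e) (hq : ∀ e, q (y e) = q e)
    (hfix : ∀ d ∈ D, y d = d) (hne : ∃ e, y e ≠ e) :
    (∀ e, y e = e ↔ e ∈ D) ∧ (∀ d ∈ D, ∃ e', e' + y e' = d) ∧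
    (∀ d ∈ D, d ≠ 0 → ∀ e, β e d = 0 → e ∈ D) := by
  classical
  have hW0 : 0 < Fintype.card W := Fintype.card_pos
  -- invariance of the form
  have hβy : ∀ a b, β (y a) (y b) = β a b := by
    intro a b
    have h1 := h.polar (y a) (y b)
    rw [← map_add, hq, hq, hq, h.polar] at h1
    exact (add_left_cancel h1).symm
  -- orthogonality
  have horth : ∀ c e, y c = c → β c (e + y e) = 0 := by
    intro c e hc
    rw [h.add_r]
    have h1 := hβy c e
    rw [hc] at h1
    rw [← h1, two_add]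
  -- kernels
  have hker : ∀ i : E, i ≠ 0 → (Finset.univ.filter (fun e => β e i = 0)).card = Fintype.card W := by
    intro i hi
    let f : E →+ W := AddMonoidHom.mk' (fun e => β e i) (fun a b => h.add_l a b i)
    have h1 := card_ker_mul_range f
    have h2 : (Finset.univ.image f) = Finset.univ := by
      ext w
      simp only [Finset.mem_image, Finset.mem_univ, true_and, iff_true]
      exact hsurj i hi w
    rw [h2, Finset.card_univ, hcard, sq] at h1
    exact Nat.eq_of_mul_eq_mul_right hW0 h1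
  -- the fixed set lies in the kernels
  obtain ⟨e₀, he₀⟩ := hne
  have hi₀ : e₀ + y e₀ ≠ 0 := by
    intro h0
    apply he₀
    have h1 : e₀ + y e₀ + y e₀ = y e₀ := by rw [h0, zero_add]
    rw [add_assoc, two_add, add_zero] at h1
    exact h1.symm
  have hfixsub : Finset.univ.filter (fun e => y e = e) ⊆ Finset.univ.filter (fun e => β e (e₀ + y e₀) = 0) := by
    intro c hc
    simp only [Finset.mem_filter, Finset.mem_univ, true_and] at hc ⊢
    exact horth c e₀ hc
  have hDsub : D ⊆ Finset.univ.filter (fun e => y e = e) := by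
    intro d hd
    simp only [Finset.mem_filter, Finset.mem_univ, true_and]
    exact hfix d hd
  have hfixcard : (Finset.univ.filter (fun e => y e = e)).card ≤ Fintype.card W := by
    rw [← hker _ hi₀]
    exact Finset.card_le_card hfixsub
  have hDeq : D = Finset.univ.filter (fun e => y e = e) :=
    Finset.eq_of_subset_of_card_le hDsub (hfixcard.trans hD)
  have hDmem : ∀ e, y e = e ↔ e ∈ D := by
    intro e
    rw [hDeq]
    simp
  have hDcard : D.card = Fintype.card W :=
    le_antisymm (by rw [hDeq]; exact hfixcard) hD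
  -- the image of `1 + y`
  let φ : E →+ E := AddMonoidHom.mk' (fun e => e + y e) (fun a b => by
    rw [map_add]
    abel)
  have hφ : ∀ e, φ e = e + y e := fun e => rfl
  have hφker : Finset.univ.filter (fun e => φ e = 0) = D := by
    rw [hDeq]
    ext e
    simp only [Finset.mem_filter, Finset.mem_univ, true_and, hφ]
    constructor
    · intro h0
      have h1 : e + y e + y e = y e := by rw [h0, zero_add]
      rw [add_assoc, two_add, add_zero] at h1
      exact h1.symm
    · intro h0
      rw [h0, two_add]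
  have hφimg : Finset.univ.image φ ⊆ D := by
    intro d hd
    obtain ⟨e, -, rfl⟩ := Finset.mem_image.1 hd
    rw [← hDmem, hφ, map_add, hy, add_comm]
  have hφcard : (Finset.univ.image φ).card = Fintype.card W := by
    have h1 := card_ker_mul_range φ
    rw [hφker, hDcard, hcard, sq] at h1
    exact Nat.eq_of_mul_eq_mul_left hW0 h1
  have hφeq : Finset.univ.image φ = D :=
    Finset.eq_of_subset_of_card_le hφimg (by rw [hφcard, hDcard])
  refine ⟨hDmem, ?_, ?_⟩
  · intro d hd
    rw [← hφeq] at hd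
    obtain ⟨e, -, he⟩ := Finset.mem_image.1 hd
    exact ⟨e, he⟩
  · intro d hd hd0 e he
    rw [← hφeq] at hd
    obtain ⟨e', -, he'⟩ := Finset.mem_image.1 hd
    -- the kernel of `β · d` contains the fixed set and has the same size
    have hsub : D ⊆ Finset.univ.filter (fun e => β e d = 0) := by
      intro c hc
      simp only [Finset.mem_filter, Finset.mem_univ, true_and]
      rw [← he', hφ]
      exact horth c e' ((hDmem c).2 hc)
    have heq := Finset.eq_of_subset_of_card_le hsub (by rw [hker d hd0, hDcard])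
    rw [heq]
    simp [he]

theorem invol_unique [Fintype E] [Fintype W] [DecidableEq E] [DecidableEq W]
    (hcard : Fintype.card E = (Fintype.card W) ^ 2)
    (hsurj : ∀ i : E, i ≠ 0 → ∀ w : W, ∃ e : E, β e i = w)
    (D : Finset E) (hD : Fintype.card W ≤ D.card)
    (y₁ y₂ : E →+ E) (hy₁ : ∀ e, y₁ (y₁ e) = e) (hq₁ : ∀ e, q (y₁ e) = q e)
    (hfix₁ : ∀ d ∈ D, y₁ d = d) (hne₁ : ∃ e, y₁ e ≠ e)
    (hy₂ : ∀ e, y₂ (y₂ e) = e) (hq₂ : ∀ e, q (y₂ e) = q e)
    (hfix₂ : ∀ d ∈ D, y₂ d = d) (hne₂ : ∃ e, y₂ e ≠ e) :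
    ∀ e, y₁ e = y₂ e := by
  classical
  obtain ⟨h1a, h1b, h1c⟩ := h.invol_props hcard hsurj D hD y₁ hy₁ hq₁ hfix₁ hne₁
  obtain ⟨h2a, h2b, h2c⟩ := h.invol_props hcard hsurj D hD y₂ hy₂ hq₂ hfix₂ hne₂
  have hDadd : ∀ a ∈ D, ∀ b ∈ D, a + b ∈ D := by
    intro a ha b hb
    rw [← h1a, map_add, (h1a a).2 ha, (h1a b).2 hb]
  -- isotropy of D
  have hiso : ∀ a ∈ D, ∀ d ∈ D, β a d = 0 := by
    intro a ha d hd
    obtain ⟨e', rfl⟩ := h1b d hd
    have h3 : β (y₁ a) (y₁ e') = β a e' := by
      have h4 := h.polar (y₁ a) (y₁ e')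
      rw [← map_add, hq₁, hq₁, hq₁, h.polar] at h4
      exact (add_left_cancel h4).symm
    rw [(h1a a).2 ha] at h3
    rw [h.add_r, ← h3, two_add]
  have hqφ : ∀ (y : E →+ E), (∀ e, y (y e) = e) → (∀ e, q (y e) = q e) → ∀ e, q (e + y e) = β e (e + y e) := by
    intro y hy hq e
    have h3 : y e = e + (e + y e) := by rw [← add_assoc, two_add, zero_add]
    have h4 := hq e
    rw [h3, h.polar] at h4
    have h5 : q (e + y e) + β e (e + y e) = 0 := by
      have h6 : q e + (q (e + y e) + β e (e + y e)) = q e + 0 := by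
        rw [add_zero, ← add_assoc]
        exact h4
      exact add_left_cancel h6
    have h7 : q (e + y e) + β e (e + y e) + β e (e + y e) = β e (e + y e) := by rw [h5, zero_add]
    rw [add_assoc, two_add, add_zero] at h7
    exact h7
  intro e
  by_cases heD : e ∈ D
  · rw [(h1a e).2 heD, (h2a e).2 heD]
  set d₁ := e + y₁ e with hd₁
  set d₂ := e + y₂ e with hd₂
  have hd₁D : d₁ ∈ D := by
    rw [← h1a, hd₁, map_add, hy₁, add_comm]
  have hd₂D : d₂ ∈ D := by
    rw [← h2a, hd₂, map_add, hy₂, add_comm]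
  have hd₂0 : d₂ ≠ 0 := by
    intro h0
    apply heD
    rw [← h2a]
    have h1 : e + y₂ e + y₂ e = y₂ e := by
      rw [← hd₂, h0, zero_add]
    rw [add_assoc, two_add, add_zero] at h1
    exact h1.symm
  by_cases hdd : d₁ = d₂
  · have h3 : e + y₁ e = e + y₂ e := hdd
    exact add_left_cancel h3
  exfalso
  set d' := d₁ + d₂ with hd'
  have hd'0 : d' ≠ 0 := by
    intro h0
    apply hdd
    have h1 : d₁ + d₂ + d₂ = d₂ := by rw [← hd', h0, zero_add]
    rw [add_assoc, two_add, add_zero] at h1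
    exact h1
  have hd'D : d' ∈ D := hDadd _ hd₁D _ hd₂D
  obtain ⟨e', he'⟩ := h1b d' hd'D
  have h3 : q d' = β e d' := by
    rw [hd', h.polar, hiso _ hd₁D _ hd₂D, add_zero, h.add_r]
    rw [show q d₁ = β e d₁ from hqφ y₁ hy₁ hq₁ e, show q d₂ = β e d₂ from hqφ y₂ hy₂ hq₂ e]
  have h4 : q d' = β e' d' := by
    rw [← he']
    exact hqφ y₁ hy₁ hq₁ e'
  have h5 : β (e + e') d' = 0 := by
    rw [h.add_l, ← h3, ← h4, two_add]
  have h6 : e + e' ∈ D := h1c d' hd'D hd'0 _ h5
  have h7 : y₁ (e + e') = e + e' := (h1a _).2 h6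
  rw [map_add] at h7
  have h8 : d₁ = d' := by
    rw [← he', hd₁]
    -- from `y₁ e + y₁ e' = e + e'`
    have h9 : e + y₁ e + (e' + y₁ e') = 0 := by
      calc e + y₁ e + (e' + y₁ e') = (e + e') + (y₁ e + y₁ e') := by abel
        _ = (e + e') + (e + e') := by rw [h7]
        _ = 0 := two_add _
    have h10 : e + y₁ e + (e' + y₁ e') + (e' + y₁ e') = e' + y₁ e' := by rw [h9, zero_add]
    rw [add_assoc, two_add, add_zero] at h10
    exact h10
  apply hd₂0
  have h11 : d₁ + d₂ = d₁ + 0 := by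
    rw [add_zero, ← hd', h8]
  exact add_left_cancel h11

end QData

end Unique
section Action

variable {E W : Type*} [AddCommGroup E] [Module (ZMod 2) E] [Finite E]
  [AddCommGroup W] [Module (ZMod 2) W] [Finite W]

namespace QData

variable {q : E → W} {β : E → E → W} (h : QData q β)
include h

theorem act_unique (k : ℕ) (hk : ∀ v : W, v ≠ 0 → Nat.card {x // q x = v} = k) (hW : 2 < Nat.card W)
    {S : Type*} [Group S] [Finite S] (hS : IsPGroup 2 S) [MulAction S E]
    (hadd : ∀ (s : S) (a b : E), s • (a + b) = s • a + s • b)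
    (hq : ∀ (s : S) (e : E), q (s • e) = q e)
    (y₁ y₂ : S) (hy₁ : ∀ e : E, y₁ • (y₁ • e) = e) (hn₁ : ∃ e : E, y₁ • e ≠ e)
    (hy₂ : ∀ e : E, y₂ • (y₂ • e) = e) (hn₂ : ∃ e : E, y₂ • e ≠ e) :
    ∀ e : E, y₁ • e = y₂ • e := by
  classical
  haveI : Fact (Nat.Prime 2) := ⟨Nat.prime_two⟩
  letI : Fintype E := Fintype.ofFinite E
  letI : Fintype W := Fintype.ofFinite W
  have hW' : 2 < Fintype.card W := by rwa [← Nat.card_eq_fintype_card]
  have hk' : ∀ v : W, v ≠ 0 → (Finset.univ.filter (fun x => q x = v)).card = k := by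
    intro v hv
    rw [← hk v hv, ← Nat.card_eq_finsetCard]
    exact Nat.card_congr (Equiv.subtypeEquivRight (fun x => by simp))
  have hs0 : ∀ s : S, s • (0 : E) = 0 := by
    intro s
    have := hadd s 0 0
    rw [add_zero] at this
    exact left_eq_add.1 this
  -- `k > 1`
  obtain ⟨e₀, he₀⟩ := hn₁
  have he₀0 : e₀ ≠ 0 := by
    rintro rfl
    exact he₀ (hs0 y₁)
  have hv₀ : q e₀ ≠ 0 := fun h0 => he₀0 ((h.q_eq _).1 h0)
  have hk1 : 1 < k := by
    rw [← hk' _ hv₀]
    rw [Finset.one_lt_card]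
    refine ⟨e₀, by simp, y₁ • e₀, ?_, he₀.symm⟩
    simp [hq]
  obtain ⟨hcard, hsurj⟩ := h.main_nondeg k hk' hk1 hW'
  -- `k` is odd
  have hcardeq := h.card_eq k hk'
  have hWeven : Even (Fintype.card W) := by
    have h1 := Module.card_eq_pow_finrank (K := ZMod 2) (V := W)
    rw [ZMod.card] at h1
    rw [h1]
    have h2 : Module.finrank (ZMod 2) W ≠ 0 := by
      intro h0
      rw [h1, h0] at hW'
      omega
    exact (Nat.even_pow.2 ⟨even_two, h2⟩)
  have hkodd : Odd k := by
    by_contra hodd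
    rw [Nat.not_odd_iff_even] at hodd
    have h1 : Even (Fintype.card E) := by
      rw [hcard, sq]
      exact hWeven.mul_right _
    rw [hcardeq] at h1
    have h2 : Even ((Fintype.card W - 1) * k) := hodd.mul_left _
    have h3 := (Nat.even_add.1 h1).2 h2
    exact absurd h3 (by decide)
  -- the fixed vectors
  have hfixed : ∀ v : W, v ≠ 0 → ∃ e : E, q e = v ∧ ∀ s : S, s • e = e := by
    intro v hv
    let F := {x : E // q x = v}
    letI : MulAction S F :=
      { smul := fun s x => ⟨s • x.1, by rw [hq]; exact x.2⟩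
        one_smul := fun x => Subtype.ext (one_smul S x.1)
        mul_smul := fun a b x => Subtype.ext (mul_smul a b x.1) }
    have h1 := hS.card_modEq_card_fixedPoints F
    have h2 : Nat.card F = k := hk v hv
    rw [h2] at h1
    have h3 : Nat.card (MulAction.fixedPoints S F) ≠ 0 := by
      intro h0
      rw [h0] at h1
      have h4 : k % 2 = 0 := h1
      rw [Nat.odd_iff] at hkodd
      omega
    haveI : Finite F := Finite.of_injective _ Subtype.val_injective
    haveI : Finite (MulAction.fixedPoints S F) := Finite.of_injective _ Subtype.val_injective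
    have h4 : Nonempty (MulAction.fixedPoints S F) := by
      by_contra hne
      rw [not_nonempty_iff] at hne
      exact h3 (Nat.card_of_isEmpty)
    obtain ⟨⟨x, hx⟩⟩ := h4
    refine ⟨x.1, x.2, fun s => ?_⟩
    exact congrArg Subtype.val (hx s)
  let D : Finset E := Finset.univ.filter (fun e => ∀ s : S, s • e = e)
  have hD : Fintype.card W ≤ D.card := by
    have h1 : (Finset.univ : Finset W) ⊆ D.image q := by
      intro v _
      by_cases hv : v = 0
      · subst hv
        refine Finset.mem_image.2 ⟨0, ?_, h.q_zero⟩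
        simp [D, hs0]
      · obtain ⟨e, he, hes⟩ := hfixed v hv
        exact Finset.mem_image.2 ⟨e, by simp [D, hes], he⟩
    calc Fintype.card W = (Finset.univ : Finset W).card := rfl
      _ ≤ (D.image q).card := Finset.card_le_card h1
      _ ≤ D.card := Finset.card_image_le
  let f₁ : E →+ E := AddMonoidHom.mk' (fun e => y₁ • e) (hadd y₁)
  let f₂ : E →+ E := AddMonoidHom.mk' (fun e => y₂ • e) (hadd y₂)
  have hfD : ∀ (y : S), ∀ d ∈ D, y • d = d := by
    intro y d hd
    exact (Finset.mem_filter.1 hd).2 y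
  exact h.invol_unique hcard hsurj D hD f₁ f₂ hy₁ (fun e => hq y₁ e) (fun d hd => hfD y₁ d hd) ⟨e₀, he₀⟩
    hy₂ (fun e => hq y₂ e) (fun d hd => hfD y₂ d hd) hn₂

end QData

end Action

section MulForm

lemma exp2_comm {X : Type*} [Group X] (hX : ∀ x : X, x * x = 1) (a b : X) : a * b = b * a := by
  have ia : a⁻¹ = a := inv_eq_of_mul_eq_one_left (hX a)
  have ib : b⁻¹ = b := inv_eq_of_mul_eq_one_left (hX b)
  have iab : (a * b)⁻¹ = a * b := inv_eq_of_mul_eq_one_left (hX (a * b))
  rw [← iab, mul_inv_rev, ia, ib]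

/-- The additive commutative group structure in exponent two. -/
@[reducible] def addCommOfExp2 {X : Type*} [Group X] (hX : ∀ x : X, x * x = 1) :
    AddCommGroup (Additive X) :=
  { (inferInstance : AddGroup (Additive X)) with
    add_comm := fun a b => by
      show Additive.ofMul (a.toMul * b.toMul) = Additive.ofMul (b.toMul * a.toMul)
      rw [exp2_comm hX] }

/-- The multiplicative form of the uniqueness of involutions. -/
theorem mul_unique {X Y : Type*} [Group X] [Group Y] [Finite X] [Finite Y]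
    (hX : ∀ x : X, x * x = 1) (hY : ∀ y : Y, y * y = 1) (q : X → Y) (β : X → X → Y)
    (h1 : ∀ x, q x = 1 ↔ x = 1) (h2 : ∀ a b, q (a * b) = q a * q b * β a b)
    (h3 : ∀ a a' b, β (a * a') b = β a b * β a' b) (h4 : ∀ a b b', β a (b * b') = β a b * β a b')
    (k : ℕ) (hk : ∀ v : Y, v ≠ 1 → Nat.card {x // q x = v} = k) (hY2 : 2 < Nat.card Y)
    {S : Type*} [Group S] [Finite S] (hS : IsPGroup 2 S) (ρ : S →* MulAut X)
    (hq : ∀ (s : S) (x : X), q (ρ s x) = q x)
    (y₁ y₂ : S) (hy₁ : ∀ x, ρ y₁ (ρ y₁ x) = x) (hn₁ : ∃ x, ρ y₁ x ≠ x)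
    (hy₂ : ∀ x, ρ y₂ (ρ y₂ x) = x) (hn₂ : ∃ x, ρ y₂ x ≠ x) :
    ∀ x, ρ y₁ x = ρ y₂ x := by
  classical
  letI iE : AddCommGroup (Additive X) := addCommOfExp2 hX
  letI iW : AddCommGroup (Additive Y) := addCommOfExp2 hY
  letI mE : Module (ZMod 2) (Additive X) := AddCommGroup.zmodModule (fun x => by
    rw [two_nsmul]
    exact hX x.toMul)
  letI mW : Module (ZMod 2) (Additive Y) := AddCommGroup.zmodModule (fun x => by
    rw [two_nsmul]
    exact hY x.toMul)
  haveI : Finite (Additive X) := inferInstanceAs (Finite X)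
  haveI : Finite (Additive Y) := inferInstanceAs (Finite Y)
  let q' : Additive X → Additive Y := fun e => Additive.ofMul (q e.toMul)
  let β' : Additive X → Additive X → Additive Y := fun a b => Additive.ofMul (β a.toMul b.toMul)
  have hQ : QData q' β' :=
    { q_eq := fun x => h1 x.toMul
      polar := fun a b => h2 a.toMul b.toMul
      add_l := fun a a' b => h3 a.toMul a'.toMul b.toMul
      add_r := fun a b b' => h4 a.toMul b.toMul b'.toMul }
  letI act : MulAction S (Additive X) :=
    { smul := fun s e => Additive.ofMul (ρ s e.toMul)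
      one_smul := fun e => by
        show Additive.ofMul (ρ 1 e.toMul) = e
        rw [map_one]
        rfl
      mul_smul := fun a b e => by
        show Additive.ofMul (ρ (a * b) e.toMul) = Additive.ofMul (ρ a (ρ b e.toMul))
        rw [map_mul]
        rfl }
  have hact : ∀ (s : S) (e : Additive X), s • e = Additive.ofMul (ρ s e.toMul) := fun s e => rfl
  have key := hQ.act_unique k (fun v hv => hk v.toMul hv) hY2 hS
    (fun s a b => by
      show Additive.ofMul (ρ s (a.toMul * b.toMul)) = Additive.ofMul (ρ s a.toMul * ρ s b.toMul)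
      rw [map_mul])
    (fun s e => congrArg Additive.ofMul (hq s e.toMul))
    y₁ y₂ (fun e => hy₁ e.toMul)
    (by
      obtain ⟨x, hx⟩ := hn₁
      exact ⟨Additive.ofMul x, hx⟩)
    (fun e => hy₂ e.toMul)
    (by
      obtain ⟨x, hx⟩ := hn₂
      exact ⟨Additive.ofMul x, hx⟩)
  intro x
  exact key (Additive.ofMul x)

end MulForm

end Cfsg.Agent.Lib.AllInv
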