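import Mathlib
import Cfsg.Agent.Lib.AllInv.Quad

set_option autoImplicit false
set_option linter.unusedSectionVars false
set_option linter.unusedVariables false
set_option linter.style.haveILetI false

namespace Cfsg.Agent.Lib.AllInv

section CritGroup

open scoped commutatorElement

variable {G : Type*} [Group G]

/-- The centre of `C`, as a subgroup of `G`. -/
def ZZ (C : Subgroup G) : Subgroup G := C ⊓ Subgroup.centralizer (C : Set G)

lemma mem_ZZ {C : Subgroup G} {z : G} : z ∈ ZZ C ↔ z ∈ C ∧ ∀ b ∈ C, b * z = z * b := by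
  simp only [ZZ, Subgroup.mem_inf, Subgroup.mem_centralizer_iff, SetLike.mem_coe]

instance ZZ_normal (C : Subgroup G) [C.Normal] : (ZZ C).Normal := by
  unfold ZZ
  haveI : (Subgroup.centralizer (C : Set G)).Normal := Subgroup.normal_centralizer
  infer_instance

/-- The data attached to a critical subgroup. -/
structure CD (R C V : Subgroup G) (h : ℕ) : Prop where
  Cn : C.Normal
  Vn : V.Normal
  CR : C ≤ R
  comm_mem : ∀ a ∈ C, ∀ r ∈ R, ⁅a, r⁆ ∈ ZZ C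
  sq_mem : ∀ a ∈ C, a * a ∈ ZZ C
  VZ : V ≤ ZZ C
  Viff : ∀ x : G, x ∈ V ↔ x * x = 1
  pow2 : ∀ z ∈ ZZ C, z ^ (2 * h) = 1
  pow_sq : ∀ z ∈ ZZ C, z ^ h = 1 → ∃ η ∈ ZZ C, z = η * η

namespace CD

variable {R C V : Subgroup G} {h : ℕ} (D : CD R C V h)
include D

lemma mem_C {a : G} (ha : a ∈ ZZ C) : a ∈ C := (mem_ZZ.1 ha).1

lemma cen {z : G} (hz : z ∈ ZZ C) {b : G} (hb : b ∈ C) : b * z = z * b := (mem_ZZ.1 hz).2 b hb

lemma comm_C {a b : G} (ha : a ∈ C) (hb : b ∈ C) : ⁅a, b⁆ ∈ ZZ C := D.comm_mem a ha b (D.CR hb)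

/-- `π` is multiplicative on `Z`. -/
lemma pi_mul {x y : G} (hx : x ∈ ZZ C) (hy : y ∈ ZZ C) : (x * y) ^ h = x ^ h * y ^ h := by
  have : Commute x y := (D.cen hy (D.mem_C hx))
  exact this.mul_pow h

lemma pi_mem {x : G} (hx : x ∈ ZZ C) : x ^ h ∈ V := by
  rw [D.Viff, ← pow_add, ← two_mul]
  exact D.pow2 x hx

/-- The square computation. -/
lemma sq_mul {a b : G} (ha : a ∈ C) (hb : b ∈ C) : (a * b) * (a * b) = ⁅a, b⁆ * ((a * a) * (b * b)) := by
  have h1 : ⁅a, b⁆ * b * a = a * b := by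
    rw [commutatorElement_def]
    group
  have h2 := D.cen (D.sq_mem a ha) hb
  calc (a * b) * (a * b) = (⁅a, b⁆ * b * a) * (a * b) := by rw [h1]
    _ = ⁅a, b⁆ * (b * (a * a)) * b := by group
    _ = ⁅a, b⁆ * ((a * a) * b) * b := by rw [h2]
    _ = _ := by group

/-- The quadratic map on `C`. -/
lemma q_mul {a b : G} (ha : a ∈ C) (hb : b ∈ C) :
    ((a * b) * (a * b)) ^ h = (a * a) ^ h * (b * b) ^ h * ⁅a, b⁆ ^ h := by
  have hs1 := D.sq_mem a ha
  have hs2 := D.sq_mem b hb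
  have hc := D.comm_C ha hb
  rw [D.sq_mul ha hb, D.pi_mul hc ((ZZ C).mul_mem hs1 hs2), D.pi_mul hs1 hs2]
  have h3 : Commute (⁅a, b⁆ ^ h) ((a * a) ^ h * (b * b) ^ h) := by
    have h4 : Commute (⁅a, b⁆) ((a * a) * (b * b)) :=
      (D.cen hc (D.mem_C ((ZZ C).mul_mem hs1 hs2))).symm
    rw [← D.pi_mul hs1 hs2]
    exact h4.pow_pow h h
  exact h3.eq

lemma comm_mul_left {a a' b : G} (ha : a ∈ C) (ha' : a' ∈ C) (hb : b ∈ C) :
    ⁅a * a', b⁆ = ⁅a', b⁆ * ⁅a, b⁆ := by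
  have h1 := D.cen (D.comm_C ha' hb) ha
  have h2 : ⁅a * a', b⁆ = a * ⁅a', b⁆ * (b * a⁻¹ * b⁻¹) := by
    rw [commutatorElement_def, commutatorElement_def]
    group
  rw [h2, h1]
  rw [commutatorElement_def a b]
  group

lemma comm_mul_right {a b b' : G} (ha : a ∈ C) (hb : b ∈ C) (hb' : b' ∈ C) :
    ⁅a, b * b'⁆ = ⁅a, b⁆ * ⁅a, b'⁆ := by
  have h1 := D.cen (D.comm_C ha hb') hb
  have h2 : ⁅a, b * b'⁆ = (a * b * a⁻¹) * (⁅a, b'⁆ * b⁻¹) := by
    rw [commutatorElement_def, commutatorElement_def]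
    group
  have h3 : ⁅a, b'⁆ * b⁻¹ = b⁻¹ * ⁅a, b'⁆ := by
    have := D.cen (D.comm_C ha hb') ((C.inv_mem hb))
    exact this.symm
  rw [h2, h3]
  rw [commutatorElement_def a b]
  group

/-- Well-definedness of the quadratic map. -/
lemma q_congr {a ζ : G} (ha : a ∈ C) (hζ : ζ ∈ ZZ C) :
    ((a * ζ) * (a * ζ)) ^ h = (a * a) ^ h := by
  have hs := D.sq_mem a ha
  have h1 := D.cen hζ ha
  have h2 : (a * ζ) * (a * ζ) = (a * a) * (ζ * ζ) := by
    calc (a * ζ) * (a * ζ) = a * (ζ * a) * ζ := by group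
      _ = a * (a * ζ) * ζ := by rw [h1]
      _ = _ := by group
  rw [h2, D.pi_mul hs ((ZZ C).mul_mem hζ hζ)]
  have h3 : (ζ * ζ) ^ h = 1 := by
    rw [← sq, ← pow_mul]
    exact D.pow2 ζ hζ
  rw [h3, mul_one]

lemma comm_congr {a b ζ ζ' : G} (ha : a ∈ C) (hb : b ∈ C) (hζ : ζ ∈ ZZ C) (hζ' : ζ' ∈ ZZ C) :
    ⁅a * ζ, b * ζ'⁆ = ⁅a, b⁆ := by
  have h1 : ∀ x ∈ C, ∀ z ∈ ZZ C, ⁅x, z⁆ = 1 := by
    intro x hx z hz
    rw [commutatorElement_eq_one_iff_mul_comm]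
    exact D.cen hz hx
  have h2 : ∀ z ∈ ZZ C, ∀ x ∈ C, ⁅z, x⁆ = 1 := by
    intro z hz x hx
    rw [commutatorElement_eq_one_iff_mul_comm]
    exact (D.cen hz hx).symm
  rw [D.comm_mul_left ha (D.mem_C hζ) ((C.mul_mem hb (D.mem_C hζ'))),
    D.comm_mul_right ha hb (D.mem_C hζ'), h2 ζ hζ _ (C.mul_mem hb (D.mem_C hζ')), one_mul,
    h1 a ha ζ' hζ', mul_one]

/-- Anisotropy. -/
lemma q_eq_one {a : G} (ha : a ∈ C) (h1 : (a * a) ^ h = 1) : a ∈ ZZ C := by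
  obtain ⟨η, hη, he⟩ := D.pow_sq _ (D.sq_mem a ha) h1
  have h2 := D.cen hη ha
  have h3 : (a * η⁻¹) * (a * η⁻¹) = 1 := by
    have h4 : η⁻¹ * a = a * η⁻¹ := by
      have := D.cen ((ZZ C).inv_mem hη) ha
      exact this.symm
    calc (a * η⁻¹) * (a * η⁻¹) = a * (η⁻¹ * a) * η⁻¹ := by group
      _ = a * (a * η⁻¹) * η⁻¹ := by rw [h4]
      _ = (a * a) * (η⁻¹ * η⁻¹) := by group
      _ = (η * η) * (η⁻¹ * η⁻¹) := by rw [he]
      _ = 1 := by group
  have h5 : a * η⁻¹ ∈ ZZ C := D.VZ ((D.Viff _).2 h3)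
  have h6 : a = (a * η⁻¹) * η := by group
  rw [h6]
  exact (ZZ C).mul_mem h5 hη

end CD

end CritGroup
section QuotPart

open scoped commutatorElement

variable {G : Type*} [Group G]

/-- The quotient `C / Z(C)`. -/
abbrev XX (C : Subgroup G) [C.Normal] := ↥C ⧸ ((ZZ C).subgroupOf C)

/-- The section. -/
noncomputable def sec (C : Subgroup G) [C.Normal] (x : XX C) : ↥C := Quotient.out x

variable {C : Subgroup G} [hC : C.Normal]

lemma mk_sec (x : XX C) : ((sec C x : ↥C) : XX C) = x := QuotientGroup.out_eq' x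

lemma sec_mk (a : ↥C) : ∃ ζ ∈ ZZ C, ((sec C (a : XX C) : ↥C) : G) = (a : G) * ζ := by
  have h1 : ((sec C (a : XX C) : ↥C) : XX C) = (a : XX C) := mk_sec _
  rw [eq_comm, QuotientGroup.eq] at h1
  refine ⟨_, Subgroup.mem_subgroupOf.1 h1, ?_⟩
  simp

lemma mk_eq_one_iff (a : ↥C) : ((a : XX C) = 1) ↔ (a : G) ∈ ZZ C := by
  rw [QuotientGroup.eq_one_iff, Subgroup.mem_subgroupOf]

lemma mk_eq_mk_iff (a b : ↥C) : ((a : XX C) = (b : XX C)) ↔ (a : G)⁻¹ * (b : G) ∈ ZZ C := by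
  rw [QuotientGroup.eq, Subgroup.mem_subgroupOf]
  simp

variable {R V : Subgroup G} {h : ℕ}

/-- The quadratic map on the quotient. -/
noncomputable def qbar (D : CD R C V h) (x : XX C) : ↥V :=
  ⟨(((sec C x : ↥C) : G) * ((sec C x : ↥C) : G)) ^ h, D.pi_mem (D.sq_mem _ (sec C x).2)⟩

/-- The bilinear map on the quotient. -/
noncomputable def bbar (D : CD R C V h) (x y : XX C) : ↥V :=
  ⟨⁅((sec C x : ↥C) : G), ((sec C y : ↥C) : G)⁆ ^ h,
    D.pi_mem (D.comm_C (sec C x).2 (sec C y).2)⟩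

lemma qbar_mk (D : CD R C V h) (a : ↥C) : ((qbar D (a : XX C) : ↥V) : G) = ((a : G) * (a : G)) ^ h := by
  obtain ⟨ζ, hζ, he⟩ := sec_mk a
  show (((sec C (a : XX C) : ↥C) : G) * ((sec C (a : XX C) : ↥C) : G)) ^ h = _
  rw [he]
  exact D.q_congr a.2 hζ

lemma bbar_mk (D : CD R C V h) (a b : ↥C) :
    ((bbar D (a : XX C) (b : XX C) : ↥V) : G) = ⁅(a : G), (b : G)⁆ ^ h := by
  obtain ⟨ζ, hζ, he⟩ := sec_mk a
  obtain ⟨ζ', hζ', he'⟩ := sec_mk b
  show ⁅((sec C (a : XX C) : ↥C) : G), ((sec C (b : XX C) : ↥C) : G)⁆ ^ h = _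
  rw [he, he', D.comm_congr a.2 b.2 hζ hζ']

lemma xx_sq (D : CD R C V h) (x : XX C) : x * x = 1 := by
  obtain ⟨a, rfl⟩ := QuotientGroup.mk_surjective x
  rw [← QuotientGroup.mk_mul, mk_eq_one_iff]
  exact D.sq_mem _ a.2

lemma vv_sq (D : CD R C V h) (y : ↥V) : y * y = 1 :=
  Subtype.ext ((D.Viff _).1 y.2)

lemma vv_comm (D : CD R C V h) (y y' : ↥V) : y * y' = y' * y :=
  exp2_comm (vv_sq D) y y'

lemma qbar_eq_one (D : CD R C V h) (x : XX C) : qbar D x = 1 ↔ x = 1 := by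
  obtain ⟨a, rfl⟩ := QuotientGroup.mk_surjective x
  rw [mk_eq_one_iff]
  constructor
  · intro h1
    apply D.q_eq_one a.2
    have := congrArg (Subtype.val) h1
    rw [qbar_mk] at this
    exact this
  · intro h1
    apply Subtype.ext
    rw [qbar_mk]
    show ((a : G) * (a : G)) ^ h = 1
    rw [← sq, ← pow_mul]
    exact D.pow2 _ h1

lemma qbar_mul (D : CD R C V h) (x y : XX C) : qbar D (x * y) = qbar D x * qbar D y * bbar D x y := by
  obtain ⟨a, rfl⟩ := QuotientGroup.mk_surjective x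
  obtain ⟨b, rfl⟩ := QuotientGroup.mk_surjective y
  apply Subtype.ext
  rw [← QuotientGroup.mk_mul, qbar_mk]
  show _ = ((qbar D (a : XX C) : ↥V) : G) * ((qbar D (b : XX C) : ↥V) : G) * ((bbar D (a : XX C) (b : XX C) : ↥V) : G)
  rw [qbar_mk, qbar_mk, bbar_mk]
  exact D.q_mul a.2 b.2

lemma bbar_mul_left (D : CD R C V h) (x x' y : XX C) : bbar D (x * x') y = bbar D x y * bbar D x' y := by
  obtain ⟨a, rfl⟩ := QuotientGroup.mk_surjective x
  obtain ⟨a', rfl⟩ := QuotientGroup.mk_surjective x'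
  obtain ⟨b, rfl⟩ := QuotientGroup.mk_surjective y
  rw [vv_comm D]
  apply Subtype.ext
  rw [← QuotientGroup.mk_mul, bbar_mk]
  show _ = ((bbar D (a' : XX C) (b : XX C) : ↥V) : G) * ((bbar D (a : XX C) (b : XX C) : ↥V) : G)
  rw [bbar_mk, bbar_mk]
  show ⁅(a : G) * (a' : G), (b : G)⁆ ^ h = _
  rw [D.comm_mul_left a.2 a'.2 b.2, D.pi_mul (D.comm_C a'.2 b.2) (D.comm_C a.2 b.2)]

lemma bbar_mul_right (D : CD R C V h) (x y y' : XX C) : bbar D x (y * y') = bbar D x y * bbar D x y' := by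
  obtain ⟨a, rfl⟩ := QuotientGroup.mk_surjective x
  obtain ⟨b, rfl⟩ := QuotientGroup.mk_surjective y
  obtain ⟨b', rfl⟩ := QuotientGroup.mk_surjective y'
  apply Subtype.ext
  rw [← QuotientGroup.mk_mul, bbar_mk]
  show _ = ((bbar D (a : XX C) (b : XX C) : ↥V) : G) * ((bbar D (a : XX C) (b' : XX C) : ↥V) : G)
  rw [bbar_mk, bbar_mk]
  show ⁅(a : G), (b : G) * (b' : G)⁆ ^ h = _
  rw [D.comm_mul_right a.2 b.2 b'.2, D.pi_mul (D.comm_C a.2 b.2) (D.comm_C a.2 b'.2)]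

lemma conj_stable (g : G) : ((ZZ C).subgroupOf C).map ((MulAut.conjNormal g : MulAut C) : ↥C →* ↥C) = (ZZ C).subgroupOf C := by
  ext x
  constructor
  · rintro ⟨y, hy, rfl⟩
    rw [SetLike.mem_coe, Subgroup.mem_subgroupOf] at hy
    rw [Subgroup.mem_subgroupOf]
    have e1 : (((MulAut.conjNormal g : MulAut C) y : ↥C) : G) = g * y * g⁻¹ := MulAut.conjNormal_apply g y
    show (((MulAut.conjNormal g : MulAut C) y : ↥C) : G) ∈ ZZ C
    rw [e1]
    exact (inferInstance : (ZZ C).Normal).conj_mem _ hy g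
  · intro hx
    rw [Subgroup.mem_subgroupOf] at hx
    refine ⟨(MulAut.conjNormal g⁻¹ : MulAut C) x, ?_, ?_⟩
    · rw [SetLike.mem_coe, Subgroup.mem_subgroupOf]
      have e1 : (((MulAut.conjNormal g⁻¹ : MulAut C) x : ↥C) : G) = g⁻¹ * x * g⁻¹⁻¹ := MulAut.conjNormal_apply g⁻¹ x
      rw [e1]
      exact (inferInstance : (ZZ C).Normal).conj_mem _ hx g⁻¹
    · apply Subtype.ext
      show (((MulAut.conjNormal g : MulAut C) ((MulAut.conjNormal g⁻¹ : MulAut C) x) : ↥C) : G) = x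
      rw [MulAut.conjNormal_apply, MulAut.conjNormal_apply]
      group

/-- Conjugation on the quotient. -/
noncomputable def rho (C : Subgroup G) [C.Normal] : G →* MulAut (XX C) :=
  MonoidHom.mk' (fun g => QuotientGroup.congr ((ZZ C).subgroupOf C) ((ZZ C).subgroupOf C)
      (MulAut.conjNormal g) (conj_stable g))
    (by
      intro g g'
      ext x
      obtain ⟨a, rfl⟩ := QuotientGroup.mk_surjective x
      show (((MulAut.conjNormal (g * g') : MulAut C) a : ↥C) : XX C) =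
        (((MulAut.conjNormal g : MulAut C) ((MulAut.conjNormal g' : MulAut C) a) : ↥C) : XX C)
      rw [map_mul]
      rfl)

lemma rho_mk (g : G) (a : ↥C) :
    rho C g (a : XX C) = (((MulAut.conjNormal g : MulAut C) a : ↥C) : XX C) := rfl

lemma qbar_rho (D : CD R C V h) (g : G) (x : XX C) :
    ((qbar D (rho C g x) : ↥V) : G) = g * ((qbar D x : ↥V) : G) * g⁻¹ := by
  obtain ⟨a, rfl⟩ := QuotientGroup.mk_surjective x
  rw [rho_mk, qbar_mk, qbar_mk, MulAut.conjNormal_apply, ← conj_pow]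
  congr 1
  group

lemma rho_eq_self_of_mem (D : CD R C V h) {r : G} (hr : r ∈ R) (x : XX C) : rho C r x = x := by
  obtain ⟨a, rfl⟩ := QuotientGroup.mk_surjective x
  rw [rho_mk, eq_comm, mk_eq_mk_iff, MulAut.conjNormal_apply]
  have h1 := D.comm_mem _ (C.inv_mem a.2) r hr
  rw [commutatorElement_def, inv_inv] at h1
  have h2 : (a : G)⁻¹ * (r * a * r⁻¹) = (a : G)⁻¹ * r * a * r⁻¹ := by group
  rw [h2]
  exact h1

lemma fiber_card (D : CD R C V h) (v w : ↥V) (g : G) (hg : g * (v : G) * g⁻¹ = w) :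
    Nat.card {x // qbar D x = v} = Nat.card {x // qbar D x = w} := by
  apply Nat.card_congr
  refine ⟨fun x => ⟨rho C g x.1, ?_⟩, fun x => ⟨rho C g⁻¹ x.1, ?_⟩, ?_, ?_⟩
  · apply Subtype.ext
    rw [qbar_rho, x.2, hg]
  · apply Subtype.ext
    rw [qbar_rho, x.2, ← hg]
    group
  · intro x
    apply Subtype.ext
    show rho C g⁻¹ (rho C g x.1) = x.1
    rw [← MulAut.mul_apply, ← map_mul, inv_mul_cancel, map_one, MulAut.one_apply]
  · intro x
    apply Subtype.ext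
    show rho C g (rho C g⁻¹ x.1) = x.1
    rw [← MulAut.mul_apply, ← map_mul, mul_inv_cancel, map_one, MulAut.one_apply]

end QuotPart

end Cfsg.Agent.Lib.AllInv
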