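import Mathlib
import Cfsg.Agent.Lib.AllInv.Crit
import Cfsg.Agent.Lib.PGroup.Critical
import Cfsg.Agent.Lib.Solvable.PSeries
import Cfsg.Agent.Lib.Coprime.Stability
import Cfsg.Agent.Lib.Coprime.Coset
import Cfsg.Agent.Lib.Basic.SylowUtil

set_option autoImplicit false
set_option linter.unusedSectionVars false
set_option linter.unusedVariables false
set_option linter.style.haveILetI false

namespace Cfsg.Agent.Lib.AllInv

open scoped commutatorElement
open Cfsg Cfsg.Agent.Lib.Basic.PCore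

variable {G : Type*} [Group G]

/-- If `g` (of odd order) fixes the difference `a⁻¹ (a^g)`, a `2`-element, it fixes `a`. -/
lemma fix_diff [Finite G] {g a : G} (hg : (orderOf g).Coprime 2)
    (hu : g * (a⁻¹ * (g * a * g⁻¹)) * g⁻¹ = a⁻¹ * (g * a * g⁻¹))
    {k : ℕ} (hk : (a⁻¹ * (g * a * g⁻¹)) ^ (2 ^ k) = 1) : g * a * g⁻¹ = a := by
  set u := a⁻¹ * (g * a * g⁻¹) with hudef
  have hau : g * a * g⁻¹ = a * u := by
    rw [hudef]
    group
  have hpow : ∀ n : ℕ, g ^ n * a * (g ^ n)⁻¹ = a * u ^ n := by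
    intro n
    induction n with
    | zero => simp
    | succ n ih =>
      have hun : g * u ^ n * g⁻¹ = u ^ n := by
        rw [← conj_pow, hu]
      calc g ^ (n + 1) * a * (g ^ (n + 1))⁻¹ = g * (g ^ n * a * (g ^ n)⁻¹) * g⁻¹ := by
            rw [pow_succ']
            group
        _ = g * (a * u ^ n) * g⁻¹ := by rw [ih]
        _ = (g * a * g⁻¹) * (g * u ^ n * g⁻¹) := by group
        _ = (a * u) * u ^ n := by rw [hau, hun]
        _ = a * u ^ (n + 1) := by rw [pow_succ']; group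
  have h1 := hpow (orderOf g)
  rw [pow_orderOf_eq_one, one_mul, inv_one, mul_one] at h1
  have h2 : u ^ orderOf g = 1 := by
    have : a * u ^ orderOf g = a * 1 := by rw [← h1, mul_one]
    exact mul_left_cancel this
  have h3 : orderOf u ∣ orderOf g := orderOf_dvd_of_pow_eq_one h2
  have h4 : orderOf u ∣ 2 ^ k := orderOf_dvd_of_pow_eq_one hk
  have h5 : Nat.Coprime (orderOf g) (2 ^ k) := Nat.Coprime.pow_right k hg
  have h6 : orderOf u = 1 := Nat.eq_one_of_dvd_coprimes h5 h3 h4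
  rw [orderOf_eq_one_iff] at h6
  rw [hau, h6, mul_one]

variable {R C V : Subgroup G} {h : ℕ}

/-- An element of odd order in the kernel on `C/Z(C)` centralizing `V` is trivial. -/
theorem odd_trivial [Finite G] [hC : C.Normal] [hRn : R.Normal] (D : CD R C V h) (hRp : IsPGroup 2 R)
    (hself : ∀ r ∈ R, (∀ a ∈ C, r * a = a * r) → r ∈ C)
    (hcent : Subgroup.centralizer (R : Set G) ≤ R)
    {g : G} (hg : (orderOf g).Coprime 2) (hV : ∀ v ∈ V, g * v = v * g) (hρ : rho C g = 1) : g = 1 := by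
  have h2el : ∀ r ∈ R, ∃ k : ℕ, r ^ (2 ^ k) = 1 := by
    intro r hr
    obtain ⟨k, hk⟩ := hRp ⟨r, hr⟩
    exact ⟨k, by simpa using congrArg Subtype.val hk⟩
  have hZR : ∀ z ∈ ZZ C, z ∈ R := fun z hz => D.CR (D.mem_C hz)
  haveI hZn : (ZZ C).Normal := inferInstance
  -- step 1
  have step1 : ∀ (k : ℕ) (z : G), z ∈ ZZ C → z ^ (2 ^ k) = 1 → g * z * g⁻¹ = z := by
    intro k
    induction k with
    | zero =>
      intro z _ hz
      have : z = 1 := by simpa using hz
      rw [this]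
      group
    | succ k ih =>
      intro z hz hzk
      have hw : g * (z * z) * g⁻¹ = z * z := by
        apply ih _ ((ZZ C).mul_mem hz hz)
        rw [← sq, ← pow_mul, mul_comm, ← pow_succ]
        exact hzk
      have hzg : g * z * g⁻¹ ∈ ZZ C := hZn.conj_mem z hz g
      have hu : z⁻¹ * (g * z * g⁻¹) ∈ V := by
        rw [D.Viff]
        have hcomm : Commute z⁻¹ (g * z * g⁻¹) :=
          (D.cen ((ZZ C).inv_mem hz) (D.mem_C hzg)).symm
        have e1 : (z⁻¹ * (g * z * g⁻¹)) * (z⁻¹ * (g * z * g⁻¹)) =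
            (z⁻¹ * z⁻¹) * ((g * z * g⁻¹) * (g * z * g⁻¹)) := by
          rw [← sq, hcomm.mul_pow, sq, sq]
        have e2 : (g * z * g⁻¹) * (g * z * g⁻¹) = g * (z * z) * g⁻¹ := by group
        rw [e1, e2, hw]
        group
      have hgu := (hV _ hu)
      obtain ⟨j, hj⟩ := h2el _ (hZR _ ((ZZ C).mul_mem ((ZZ C).inv_mem hz) hzg))
      apply fix_diff hg _ hj
      rw [hgu]
      group
  have step1' : ∀ z ∈ ZZ C, g * z * g⁻¹ = z := by
    intro z hz
    obtain ⟨k, hk⟩ := h2el z (hZR z hz)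
    exact step1 k z hz hk
  -- step 2
  have step2 : ∀ a ∈ C, g * a * g⁻¹ = a := by
    intro a ha
    have h1 : rho C g ((⟨a, ha⟩ : ↥C) : XX C) = ((⟨a, ha⟩ : ↥C) : XX C) := by
      rw [hρ]
      rfl
    rw [rho_mk, eq_comm, mk_eq_mk_iff, MulAut.conjNormal_apply] at h1
    have hu : a⁻¹ * (g * a * g⁻¹) ∈ ZZ C := h1
    obtain ⟨j, hj⟩ := h2el _ (hZR _ hu)
    exact fix_diff hg (step1' _ hu) hj
  -- step 3
  have step3 : ∀ r ∈ R, g * r * g⁻¹ = r := by
    intro r hr
    have hgr : g * r * g⁻¹ ∈ R := hRn.conj_mem r hr g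
    have huR : r⁻¹ * (g * r * g⁻¹) ∈ R := R.mul_mem (R.inv_mem hr) hgr
    have hucomm : ∀ a ∈ C, (r⁻¹ * (g * r * g⁻¹)) * a = a * (r⁻¹ * (g * r * g⁻¹)) := by
      intro a ha
      have e1 : g⁻¹ * a * g = a := by
        have := step2 a ha
        calc g⁻¹ * a * g = g⁻¹ * (g * a * g⁻¹) * g := by rw [this]
          _ = a := by group
      have hra : r * a * r⁻¹ ∈ C := hC.conj_mem a ha r
      have e2 := step2 _ hra
      have e3 : (g * r * g⁻¹) * a * (g * r * g⁻¹)⁻¹ = r * a * r⁻¹ := by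
        calc (g * r * g⁻¹) * a * (g * r * g⁻¹)⁻¹ = g * (r * (g⁻¹ * a * g) * r⁻¹) * g⁻¹ := by group
          _ = g * (r * a * r⁻¹) * g⁻¹ := by rw [e1]
          _ = r * a * r⁻¹ := e2
      have e4 : (g * r * g⁻¹) * a = r * a * r⁻¹ * (g * r * g⁻¹) := by
        rw [← e3]
        group
      calc (r⁻¹ * (g * r * g⁻¹)) * a = r⁻¹ * ((g * r * g⁻¹) * a) := by group
        _ = r⁻¹ * (r * a * r⁻¹ * (g * r * g⁻¹)) := by rw [e4]
        _ = a * (r⁻¹ * (g * r * g⁻¹)) := by group
    have huC := hself _ huR hucomm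
    obtain ⟨j, hj⟩ := h2el _ huR
    exact fix_diff hg (step2 _ huC) hj
  have hgR : g ∈ R := by
    apply hcent
    rw [Subgroup.mem_centralizer_iff]
    intro r hr
    have := step3 r hr
    rw [mul_inv_eq_iff_eq_mul] at this
    exact this.symm
  obtain ⟨j, hj⟩ := h2el g hgR
  have h1 : orderOf g ∣ 2 ^ j := orderOf_dvd_of_pow_eq_one hj
  have h2 : orderOf g = 1 := Nat.Coprime.eq_one_of_dvd (Nat.Coprime.pow_right j hg) h1
  exact orderOf_eq_one_iff.1 h2

/-- The kernel on the section is a normal `2`-subgroup. -/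
theorem ker_le_pCore [Finite G] [hC : C.Normal] (D : CD (pCore 2 G) C V h)
    (hself : ∀ r ∈ pCore 2 G, (∀ a ∈ C, r * a = a * r) → r ∈ C)
    (hcent : Subgroup.centralizer ((pCore 2 G : Subgroup G) : Set G) ≤ pCore 2 G) :
    (rho C).ker ⊓ Subgroup.centralizer (V : Set G) ≤ pCore 2 G := by
  haveI : Fact (Nat.Prime 2) := ⟨Nat.prime_two⟩
  haveI hVn : V.Normal := D.Vn
  haveI : (Subgroup.centralizer (V : Set G)).Normal := Subgroup.normal_centralizer
  apply le_pCore inferInstance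
  apply Cfsg.Agent.Lib.Coprime.Stability.isPGroup_of_forall_coprime Nat.prime_two
  rintro x ⟨hx1, hx2⟩ hx3
  apply odd_trivial D (pCore_isPGroup 2) hself hcent hx3
  · intro v hv
    exact (Subgroup.mem_centralizer_iff.1 hx2 v hv).symm
  · exact hx1


/-- The involutions form a central elementary abelian subgroup of `O₂`. -/
theorem exists_V [Finite G] (hne : pCore 2 G ≠ ⊥)
    (hconj : ∀ x y : G, x ≠ 1 → x * x = 1 → y ≠ 1 → y * y = 1 → IsConj x y) :
    ∃ V : Subgroup G, V.Normal ∧ (∀ x, x ∈ V ↔ x * x = 1) ∧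
      (∀ v ∈ V, ∀ r ∈ pCore 2 G, r * v = v * r) ∧ V ≤ pCore 2 G := by
  classical
  haveI : Fact (Nat.Prime 2) := ⟨Nat.prime_two⟩
  set R := pCore 2 G with hR
  haveI hRn : R.Normal := pCore_normal 2 G
  have hRp : IsPGroup 2 R := pCore_isPGroup 2
  let V : Subgroup G :=
    { carrier := {x | x ∈ R ∧ (∀ r ∈ R, r * x = x * r) ∧ x * x = 1}
      one_mem' := ⟨R.one_mem, fun r _ => by simp, by simp⟩
      mul_mem' := by
        rintro a b ⟨ha1, ha2, ha3⟩ ⟨hb1, hb2, hb3⟩
        refine ⟨R.mul_mem ha1 hb1, fun r hr => ?_, ?_⟩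
        · rw [← mul_assoc, ha2 r hr, mul_assoc, hb2 r hr, mul_assoc]
        · have e : b * a = a * b := ha2 b hb1
          calc a * b * (a * b) = a * (b * a) * b := by group
            _ = a * (a * b) * b := by rw [e]
            _ = (a * a) * (b * b) := by group
            _ = 1 := by rw [ha3, hb3, one_mul]
      inv_mem' := by
        rintro a ⟨ha1, ha2, ha3⟩
        have hi : a⁻¹ = a := inv_eq_of_mul_eq_one_left ha3
        rw [hi]
        exact ⟨ha1, ha2, ha3⟩ }
  have hVmem : ∀ x, x ∈ V ↔ x ∈ R ∧ (∀ r ∈ R, r * x = x * r) ∧ x * x = 1 := fun x => Iff.rfl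
  have hVn : V.Normal := by
    constructor
    rintro x ⟨h1, h2, h3⟩ g
    refine ⟨hRn.conj_mem x h1 g, fun r hr => ?_, ?_⟩
    · have hr' : g⁻¹ * r * g ∈ R := by
        have := hRn.conj_mem r hr g⁻¹
        simpa using this
      have e := h2 _ hr'
      calc r * (g * x * g⁻¹) = g * ((g⁻¹ * r * g) * x) * g⁻¹ := by group
        _ = g * (x * (g⁻¹ * r * g)) * g⁻¹ := by rw [e]
        _ = _ := by group
    · calc (g * x * g⁻¹) * (g * x * g⁻¹) = g * (x * x) * g⁻¹ := by group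
        _ = 1 := by rw [h3]; group
  -- a nontrivial element
  have hRnt : Nontrivial R := (Subgroup.nontrivial_iff_ne_bot R).2 hne
  obtain ⟨z, hz⟩ : ∃ z : Subgroup.center R, orderOf z = 2 := by
    haveI hcnt := hRp.center_nontrivial
    have hcp : IsPGroup 2 (Subgroup.center R) := hRp.to_subgroup _
    obtain ⟨n, hn, hcard⟩ := hcp.nontrivial_iff_card.1 hcnt
    have hdvd : 2 ∣ Nat.card (Subgroup.center R) := by
      rw [hcard]
      exact dvd_pow_self 2 (by omega)
    exact exists_prime_orderOf_dvd_card' 2 hdvd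
  set z₀ : G := ((z : R) : G) with hz₀
  have hz1 : z₀ ≠ 1 := by
    intro h0
    have h1 : z = 1 := by
      apply Subtype.ext
      apply Subtype.ext
      exact h0
    rw [h1, orderOf_one] at hz
    omega
  have hzz : z₀ * z₀ = 1 := by
    have h1 : z ^ 2 = 1 := by
      rw [← hz]
      exact pow_orderOf_eq_one z
    have h2 := congrArg (fun w : Subgroup.center R => ((w : R) : G)) h1
    simpa [sq, hz₀] using h2
  have hzV : z₀ ∈ V := by
    refine ⟨(z : R).2, fun r hr => ?_, hzz⟩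
    have h1 := (Subgroup.mem_center_iff.1 z.2) ⟨r, hr⟩
    exact congrArg Subtype.val h1
  refine ⟨V, hVn, ?_, ?_, fun v hv => hv.1⟩
  · intro x
    constructor
    · intro hx
      exact hx.2.2
    · intro hx
      by_cases hx1 : x = 1
      · rw [hx1]
        exact V.one_mem
      · obtain ⟨g, hg⟩ := isConj_iff.1 (hconj z₀ x hz1 hzz hx1 hx)
        rw [← hg]
        exact hVn.conj_mem _ hzV g
  · intro v hv r hr
    exact hv.2.1 r hr

/-- The kernel of the power map consists of squares. -/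
lemma sq_of_pow {A : Type*} [Group A] [Finite A] (hc : ∀ x y : A, x * y = y * x) (h : ℕ)
    (h2 : ∀ x : A, x ^ (2 * h) = 1) (hs : ∀ v : A, v * v = 1 → ∃ x : A, x ^ h = v) :
    ∀ z : A, z ^ h = 1 → ∃ η : A, z = η * η := by
  classical
  letI : CommGroup A := { (inferInstance : Group A) with mul_comm := hc }
  let f : A →* A := powMonoidHom 2
  let g : A →* A := powMonoidHom h
  have hf : ∀ x, f x = x ^ 2 := fun x => rfl
  have hg : ∀ x, g x = x ^ h := fun x => rfl
  have h1 : f.ker = g.range := by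
    ext x
    rw [MonoidHom.mem_ker, MonoidHom.mem_range, hf, sq]
    constructor
    · intro hx
      obtain ⟨y, hy⟩ := hs x hx
      exact ⟨y, hy⟩
    · rintro ⟨y, rfl⟩
      rw [← sq, hg, ← pow_mul, mul_comm, h2]
  have h3 : f.range ≤ g.ker := by
    rintro _ ⟨y, rfl⟩
    rw [MonoidHom.mem_ker, hf, hg, ← pow_mul, h2]
  have c1 := Subgroup.card_mul_index f.ker
  have c2 := Subgroup.card_mul_index g.ker
  rw [Subgroup.index_ker] at c1 c2
  have hpos : 0 < Nat.card g.range := Nat.card_pos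
  have c3 : Nat.card g.ker ≤ Nat.card f.range := by
    rw [h1] at c1
    have : Nat.card g.ker * Nat.card g.range = Nat.card f.range * Nat.card g.range := by
      rw [c2, ← c1, mul_comm]
    exact (Nat.eq_of_mul_eq_mul_right hpos this).le
  have h4 : f.range = g.ker := Subgroup.eq_of_le_of_card_ge h3 c3
  intro z hz
  have hz' : z ∈ g.ker := hz
  rw [← h4] at hz'
  obtain ⟨η, hη⟩ := hz'
  exact ⟨η, by rw [← hη, hf, sq]⟩

/-- Existence of the critical data. -/
theorem exists_CD [Finite G] {V : Subgroup G} (hVn : V.Normal) (hV : ∀ x, x ∈ V ↔ x * x = 1)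
    (hVc : ∀ v ∈ V, ∀ r ∈ pCore 2 G, r * v = v * r) (hVR : V ≤ pCore 2 G) (hne : pCore 2 G ≠ ⊥)
    (hconj : ∀ x y : G, x ≠ 1 → x * x = 1 → y ≠ 1 → y * y = 1 → IsConj x y)
    (hVne : ∃ v ∈ V, v ≠ 1) :
    ∃ (C : Subgroup G) (h : ℕ), CD (pCore 2 G) C V h ∧
      (∀ r ∈ pCore 2 G, (∀ a ∈ C, r * a = a * r) → r ∈ C) := by
  classical
  haveI : Fact (Nat.Prime 2) := ⟨Nat.prime_two⟩
  set R := pCore 2 G with hR
  haveI hRn : R.Normal := pCore_normal 2 G
  have hRp : IsPGroup 2 R := pCore_isPGroup 2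
  obtain ⟨H, hchar, h1, h2, h3⟩ := Cfsg.Agent.Lib.PGroup.Critical.exists_critical hRp
  haveI := hchar
  let C : Subgroup G := H.map R.subtype
  have hCn : C.Normal := map_subtype_normal_of_characteristic H
  have hCR : C ≤ R := by
    rintro _ ⟨x, -, rfl⟩
    exact x.2
  have hmemC : ∀ x : R, (x : G) ∈ C ↔ x ∈ H := by
    intro x
    constructor
    · rintro ⟨y, hy, hyx⟩
      have : y = x := Subtype.ext hyx
      rwa [← this]
    · intro hx
      exact ⟨x, hx, rfl⟩
  have hcen : ∀ c : R, c ∈ Subgroup.centralizer (H : Set R) → ∀ b ∈ C, b * (c : G) = (c : G) * b := by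
    intro c hc b hb
    obtain ⟨b', hb', rfl⟩ := hb
    have := Subgroup.mem_centralizer_iff.1 hc b' hb'
    exact congrArg Subtype.val this
  -- elements of `Z`
  have hZmem : ∀ c : R, c ∈ H → c ∈ Subgroup.centralizer (H : Set R) → (c : G) ∈ ZZ C := by
    intro c hc hc'
    exact mem_ZZ.2 ⟨(hmemC c).2 hc, hcen c hc'⟩
  have hcomm_mem : ∀ a ∈ C, ∀ r ∈ R, ⁅a, r⁆ ∈ ZZ C := by
    intro a ha r hr
    obtain ⟨a', ha', rfl⟩ := ha
    have h4 : ⁅a', (⟨r, hr⟩ : R)⁆ ∈ H ⊓ Subgroup.centralizer (H : Set R) :=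
      h2 (Subgroup.commutator_mem_commutator ha' (Subgroup.mem_top _))
    exact hZmem _ h4.1 h4.2
  have hHp : IsPGroup 2 H := hRp.to_subgroup H
  have hsq_mem : ∀ a ∈ C, a * a ∈ ZZ C := by
    intro a ha
    obtain ⟨a', ha', rfl⟩ := ha
    have hf := Cfsg.Agent.Lib.PGroup.Basic.pow_mem_frattini hHp (⟨a', ha'⟩ : H)
    have hc : a' ^ 2 ∈ Subgroup.centralizer (H : Set R) := by
      have := h1 ⟨_, hf, rfl⟩
      simpa using this
    have := hZmem (a' ^ 2) (H.pow_mem ha' 2) hc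
    simpa [sq] using this
  have hVZ : V ≤ ZZ C := by
    intro v hv
    have hvR := hVR hv
    have hc : (⟨v, hvR⟩ : R) ∈ Subgroup.centralizer (H : Set R) := by
      rw [Subgroup.mem_centralizer_iff]
      intro y _
      apply Subtype.ext
      exact hVc v hv y y.2
    exact hZmem _ (h3 hc) hc
  have hself : ∀ r ∈ R, (∀ a ∈ C, r * a = a * r) → r ∈ C := by
    intro r hr hra
    have hc : (⟨r, hr⟩ : R) ∈ Subgroup.centralizer (H : Set R) := by
      rw [Subgroup.mem_centralizer_iff]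
      intro y hy
      apply Subtype.ext
      exact (hra y ((hmemC y).2 hy)).symm
    exact (hmemC ⟨r, hr⟩).2 (h3 hc)
  -- the exponent
  haveI hZn : (ZZ C).Normal := by
    haveI := hCn
    infer_instance
  have hZR : ∀ z ∈ ZZ C, z ∈ R := fun z hz => hCR (mem_ZZ.1 hz).1
  have hexp : ∃ m : ℕ, ∀ z ∈ ZZ C, z ^ (2 ^ m) = 1 := by
    obtain ⟨n, hn⟩ := IsPGroup.iff_card.1 hRp
    refine ⟨n, fun z hz => ?_⟩
    have h4 := pow_card_eq_one' (x := (⟨z, hZR z hz⟩ : R))
    rw [hn] at h4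
    simpa using congrArg Subtype.val h4
  obtain ⟨v₀, hv₀, hv₀1⟩ := hVne
  have hfs := Nat.find_spec hexp
  have hm0 : Nat.find hexp ≠ 0 := by
    intro h0
    rw [h0] at hfs
    have := hfs v₀ (hVZ hv₀)
    simp only [pow_zero, pow_one] at this
    exact hv₀1 this
  obtain ⟨m, hm⟩ := Nat.exists_eq_succ_of_ne_zero hm0
  have hmin := Nat.find_min hexp (m := m) (by omega)
  push Not at hmin
  obtain ⟨ζ₀, hζ₀, hζ₀1⟩ := hmin
  have hpow2 : ∀ z ∈ ZZ C, z ^ (2 * 2 ^ m) = 1 := by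
    intro z hz
    have := hfs z hz
    rw [hm, pow_succ, mul_comm] at this
    exact this
  have hsurj : ∀ v : G, v * v = 1 → ∃ x ∈ ZZ C, x ^ (2 ^ m) = v := by
    intro v hv
    by_cases hv1 : v = 1
    · exact ⟨1, (ZZ C).one_mem, by rw [hv1, one_pow]⟩
    · have hw : (ζ₀ ^ (2 ^ m)) * (ζ₀ ^ (2 ^ m)) = 1 := by
        rw [← pow_add, ← two_mul]
        exact hpow2 ζ₀ hζ₀
      obtain ⟨g, hg⟩ := isConj_iff.1 (hconj _ v hζ₀1 hw hv1 hv)
      refine ⟨g * ζ₀ * g⁻¹, hZn.conj_mem _ hζ₀ g, ?_⟩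
      rw [conj_pow, hg]
  have hpow_sq : ∀ z ∈ ZZ C, z ^ (2 ^ m) = 1 → ∃ η ∈ ZZ C, z = η * η := by
    intro z hz hz1
    have hcA : ∀ x y : ↥(ZZ C), x * y = y * x := by
      intro x y
      apply Subtype.ext
      exact (mem_ZZ.1 y.2).2 x (mem_ZZ.1 x.2).1
    obtain ⟨η, hη⟩ := sq_of_pow hcA (2 ^ m)
      (fun x => Subtype.ext (hpow2 x x.2))
      (fun v hv => by
        obtain ⟨x, hx, hxv⟩ := hsurj v (congrArg Subtype.val hv)
        exact ⟨⟨x, hx⟩, Subtype.ext hxv⟩)
      ⟨z, hz⟩ (Subtype.ext hz1)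
    exact ⟨η, η.2, congrArg Subtype.val hη⟩
  refine ⟨C, 2 ^ m, ?_, hself⟩
  exact
    { Cn := hCn
      Vn := hVn
      CR := hCR
      comm_mem := hcomm_mem
      sq_mem := hsq_mem
      VZ := hVZ
      Viff := hV
      pow2 := hpow2
      pow_sq := hpow_sq }

/-- A `2`-element of a group lying in a normal subgroup of odd index lies in that subgroup. -/
lemma mem_of_odd_index [Finite G] {K : Subgroup G} [K.Normal] (hodd : ¬ 2 ∣ K.index) {x : G} {k : ℕ}
    (hx : x ^ (2 ^ k) = 1) : x ∈ K := by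
  rw [← QuotientGroup.eq_one_iff]
  have h1 : ((x : G ⧸ K)) ^ (2 ^ k) = 1 := by
    rw [← QuotientGroup.mk_pow, hx, QuotientGroup.mk_one]
  have h2 : ((x : G ⧸ K)) ^ (Nat.card (G ⧸ K)) = 1 := pow_card_eq_one'
  have h3 := orderOf_dvd_of_pow_eq_one h1
  have h4 := orderOf_dvd_of_pow_eq_one h2
  have h5 : Nat.Coprime (Nat.card (G ⧸ K)) (2 ^ k) := by
    apply Nat.Coprime.pow_right
    have h0 : Nat.card (G ⧸ K) = K.index := rfl
    rw [h0]
    exact ((Nat.Prime.coprime_iff_not_dvd Nat.prime_two).2 hodd).symm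
  have h6 := Nat.eq_one_of_dvd_coprimes h5 h4 h3
  exact orderOf_eq_one_iff.1 h6

/-- All Sylow `2`-subgroups centralize the involutions. -/
theorem centralizer_odd_index [Finite G] (hsol : Group.IsSolvable G) {V : Subgroup G} (hVn : V.Normal)
    (hV : ∀ x, x ∈ V ↔ x * x = 1)
    (hconj : ∀ x y : G, x ≠ 1 → x * x = 1 → y ≠ 1 → y * y = 1 → IsConj x y)
    (v w : G) (hvw : v ≠ w) (hv : v ≠ 1) (hvv : v * v = 1) (hw : w ≠ 1) (hww : w * w = 1) :
    ¬ 2 ∣ (Subgroup.centralizer (V : Set G)).index := by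
  classical
  haveI : Fact (Nat.Prime 2) := ⟨Nat.prime_two⟩
  set Ct := Subgroup.centralizer (V : Set G) with hCt
  haveI hCtn : Ct.Normal := Subgroup.normal_centralizer
  have hVcomm : ∀ a ∈ V, ∀ b ∈ V, a * b = b * a := by
    intro a ha b hb
    have h1 := (hV a).1 ha
    have h2 := (hV b).1 hb
    have h3 := (hV (a * b)).1 (V.mul_mem ha hb)
    have ia : a⁻¹ = a := inv_eq_of_mul_eq_one_left h1
    have ib : b⁻¹ = b := inv_eq_of_mul_eq_one_left h2
    have iab : (a * b)⁻¹ = a * b := inv_eq_of_mul_eq_one_left h3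
    rw [← iab, mul_inv_rev, ia, ib]
  have hCtne : Ct ≠ ⊤ := by
    intro htop
    have h1 : v ∈ V := (hV v).2 hvv
    obtain ⟨g, hg⟩ := isConj_iff.1 (hconj v w hv hvv hw hww)
    have hg' : g ∈ Ct := by rw [htop]; trivial
    have h2 := Subgroup.mem_centralizer_iff.1 hg' v h1
    apply hvw
    rw [← hg, ← h2]
    group
  haveI hQnt : Nontrivial (G ⧸ Ct) := QuotientGroup.nontrivial_iff.2 hCtne
  haveI hQs : Group.IsSolvable (G ⧸ Ct) := inferInstance
  obtain ⟨r, N, hr, hNn, hNne, hNp⟩ :=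
    Cfsg.Agent.Lib.Solvable.PSeries.exists_normal_prime_power_of_solvable (H := G ⧸ Ct)
  haveI : Fact r.Prime := ⟨hr⟩
  haveI := hNn
  set M : Subgroup G := N.comap (QuotientGroup.mk' Ct) with hM
  haveI hMn : M.Normal := inferInstance
  have hCtM : Ct ≤ M := by
    intro c hc
    show (QuotientGroup.mk' Ct) c ∈ N
    have : (QuotientGroup.mk' Ct) c = 1 := (QuotientGroup.eq_one_iff c).2 hc
    rw [this]
    exact N.one_mem
  have hMCt : ¬ M ≤ Ct := by
    intro hle
    apply hNne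
    rw [eq_bot_iff]
    intro q hq
    obtain ⟨g, rfl⟩ := QuotientGroup.mk'_surjective Ct q
    rw [Subgroup.mem_bot]
    exact (QuotientGroup.eq_one_iff g).2 (hle hq)
  -- a Sylow subgroup of `M`
  obtain ⟨P₀⟩ : Nonempty (Sylow r M) := inferInstance
  set P : Subgroup G := (P₀ : Subgroup M).map M.subtype with hP
  have hPp : IsPGroup r P := by
    exact IsPGroup.map P₀.isPGroup' _
  have hPM : P ≤ M := by
    rintro _ ⟨x, -, rfl⟩
    exact x.2
  have hsup : ∀ m ∈ M, ∃ c ∈ Ct, ∃ p ∈ P, m = c * p := by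
    have h1 : (Ct.subgroupOf M) ⊔ (P₀ : Subgroup M) = ⊤ := by
      rw [← Subgroup.index_eq_one]
      have h2 : ((Ct.subgroupOf M) ⊔ (P₀ : Subgroup M)).index ∣ (Ct.subgroupOf M).index :=
        Subgroup.index_dvd_of_le le_sup_left
      have h3 : ((Ct.subgroupOf M) ⊔ (P₀ : Subgroup M)).index ∣ (P₀ : Subgroup M).index :=
        Subgroup.index_dvd_of_le le_sup_right
      have h4 : (Ct.subgroupOf M).index = Ct.relIndex M := rfl
      have h5 : Nat.card (M.map (QuotientGroup.mk' Ct)) = Ct.relIndex M :=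
        Cfsg.Agent.Lib.Solvable.PSeries.card_map_mk' Ct M
      have h6 : M.map (QuotientGroup.mk' Ct) = N :=
        Subgroup.map_comap_eq_self_of_surjective (QuotientGroup.mk'_surjective Ct) N
      rw [h6] at h5
      obtain ⟨a, ha⟩ := IsPGroup.iff_card.1 hNp
      rw [h4, ← h5, ha] at h2
      have h7 : ¬ r ∣ (P₀ : Subgroup M).index := P₀.not_dvd_index
      have h8 : Nat.Coprime r (P₀ : Subgroup M).index := (Nat.Prime.coprime_iff_not_dvd hr).2 h7
      exact Nat.eq_one_of_dvd_coprimes (Nat.Coprime.pow_left a h8) h2 h3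
    intro m hm
    have h2 : (⟨m, hm⟩ : M) ∈ (Ct.subgroupOf M) ⊔ (P₀ : Subgroup M) := by
      rw [h1]
      trivial
    haveI : (Ct.subgroupOf M).Normal := Subgroup.normal_subgroupOf
    rw [Subgroup.mem_sup_of_normal_left] at h2
    obtain ⟨y, hy, z, hz, hyz⟩ := h2
    refine ⟨y, hy, z, ⟨z, hz, rfl⟩, ?_⟩
    exact (congrArg Subtype.val hyz).symm
  -- fixed vectors
  have hFix : ∀ x ∈ V, (∀ p ∈ P, p * x = x * p) → x = 1 := by
    intro x hxV hxP
    by_contra hx1
    have hxM : ∀ m ∈ M, m * x = x * m := by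
      intro m hm
      obtain ⟨c, hc, p, hp, rfl⟩ := hsup m hm
      have h1 := Subgroup.mem_centralizer_iff.1 hc x hxV
      rw [mul_assoc, hxP p hp, ← mul_assoc, ← h1, mul_assoc]
    have hall : ∀ y ∈ V, ∀ m ∈ M, m * y = y * m := by
      intro y hy m hm
      by_cases hy1 : y = 1
      · rw [hy1, mul_one, one_mul]
      · obtain ⟨g, hg⟩ := isConj_iff.1 (hconj x y hx1 ((hV x).1 hxV) hy1 ((hV y).1 hy))
        have hm' : g⁻¹ * m * g ∈ M := by
          have := hMn.conj_mem m hm g⁻¹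
          simpa using this
        have h1 := hxM _ hm'
        rw [← hg]
        calc m * (g * x * g⁻¹) = g * ((g⁻¹ * m * g) * x) * g⁻¹ := by group
          _ = g * (x * (g⁻¹ * m * g)) * g⁻¹ := by rw [h1]
          _ = _ := by group
    apply hMCt
    intro m hm
    rw [hCt, Subgroup.mem_centralizer_iff]
    intro y hy
    exact (hall y hy m hm).symm
  have hvV : v ∈ V := (hV v).2 hvv
  have hr2 : r ≠ 2 := by
    rintro rfl
    letI : MulAction ↥P ↥V :=
      { smul := fun p x => ⟨p * x * (p : G)⁻¹, hVn.conj_mem _ x.2 _⟩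
        one_smul := fun x => Subtype.ext (by
          show ((1 : ↥P) : G) * x * ((1 : ↥P) : G)⁻¹ = x
          simp)
        mul_smul := fun a b x => Subtype.ext (by
          show ((a * b : ↥P) : G) * x * ((a * b : ↥P) : G)⁻¹ = a * (b * x * (b : G)⁻¹) * (a : G)⁻¹
          push_cast
          group) }
    have hdvd : 2 ∣ Nat.card ↥V := by
      have h1 : orderOf (⟨v, hvV⟩ : ↥V) = 2 := by
        apply orderOf_eq_prime
        · apply Subtype.ext
          show v ^ 2 = 1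
          rw [sq, hvv]
        · intro h0
          exact hv (congrArg Subtype.val h0)
      rw [← h1]
      exact orderOf_dvd_natCard _
    have h1mem : (1 : ↥V) ∈ MulAction.fixedPoints ↥P ↥V := by
      intro p
      apply Subtype.ext
      show (p : G) * 1 * (p : G)⁻¹ = 1
      simp
    obtain ⟨b, hb, hb1⟩ := hPp.exists_fixed_point_of_prime_dvd_card_of_fixed_point ↥V hdvd h1mem
    have hb2 : (b : G) = 1 := by
      apply hFix _ b.2
      intro p hp
      have h2 := congrArg Subtype.val (hb ⟨p, hp⟩)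
      have h3 : p * (b : G) * p⁻¹ = b := h2
      rw [mul_inv_eq_iff_eq_mul] at h3
      exact h3
    exact hb1 (Subtype.ext hb2.symm)
  have hodd2 : ¬ 2 ∣ Nat.card (Subgroup.normalizer (P : Set G)) := by
    intro hd
    obtain ⟨t, ht⟩ := exists_prime_orderOf_dvd_card' 2 hd
    have ht2 : (t : G) * t = 1 := by
      have h1 : t ^ 2 = 1 := by
        rw [← ht]
        exact pow_orderOf_eq_one t
      have h2 := congrArg Subtype.val h1
      simpa [sq] using h2
    have ht1 : (t : G) ≠ 1 := by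
      intro h0
      have h1 : t = 1 := Subtype.ext h0
      rw [h1, orderOf_one] at ht
      omega
    apply ht1
    apply hFix _ ((hV _).2 ht2)
    intro p hp
    set t' : G := (t : G) with ht'
    have htn := Subgroup.mem_normalizer_iff.1 t.2 p
    have h1 : t' * p * t'⁻¹ ∈ P := htn.1 hp
    have hc1 : t' * p * t'⁻¹ * p⁻¹ ∈ P := P.mul_mem h1 (P.inv_mem hp)
    have hc2 : t' * p * t'⁻¹ * p⁻¹ ∈ V := by
      have h2 : p * t'⁻¹ * p⁻¹ ∈ V := hVn.conj_mem _ (V.inv_mem ((hV _).2 ht2)) p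
      have h3 : t' * p * t'⁻¹ * p⁻¹ = t' * (p * t'⁻¹ * p⁻¹) := by group
      rw [h3]
      exact V.mul_mem ((hV _).2 ht2) h2
    have hc3 := (hV _).1 hc2
    obtain ⟨k, hk⟩ := hPp ⟨_, hc1⟩
    have hc4 : (t' * p * t'⁻¹ * p⁻¹) ^ (r ^ k) = 1 := by
      simpa using congrArg Subtype.val hk
    have hc5 : (t' * p * t'⁻¹ * p⁻¹) ^ 2 = 1 := by
      rw [sq, hc3]
    have h6 : Nat.Coprime 2 (r ^ k) := by
      apply Nat.Coprime.pow_right
      exact (Nat.coprime_primes Nat.prime_two hr).2 (Ne.symm hr2)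
    have h7 := Nat.eq_one_of_dvd_coprimes h6 (orderOf_dvd_of_pow_eq_one hc5) (orderOf_dvd_of_pow_eq_one hc4)
    have h8 := orderOf_eq_one_iff.1 h7
    have h9 : t' * p * t'⁻¹ = p := by
      rw [mul_inv_eq_one] at h8
      exact h8
    rw [mul_inv_eq_iff_eq_mul] at h9
    exact h9.symm
  -- Frattini
  have hfr := Sylow.normalizer_sup_eq_top (p := r) (N := M) P₀
  have hPN : P ≤ Subgroup.normalizer (P : Set G) := Subgroup.le_normalizer
  have htop : Subgroup.normalizer (P : Set G) ⊔ Ct = ⊤ := by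
    rw [eq_top_iff]
    intro g _
    have h1 : g ∈ Subgroup.normalizer (P : Set G) ⊔ M := by
      have : g ∈ (⊤ : Subgroup G) := trivial
      rw [← hfr] at this
      exact this
    rw [Subgroup.mem_sup_of_normal_right] at h1
    obtain ⟨n, hn, m, hm, rfl⟩ := h1
    obtain ⟨c, hc, p, hp, rfl⟩ := hsup m hm
    have h2 : n * (c * p) = n * (c * p * c⁻¹) * c := by group
    have hcpc : c * p * c⁻¹ * p⁻¹ ∈ Ct := by
      have : c * p * c⁻¹ * p⁻¹ = c * (p * c⁻¹ * p⁻¹) := by group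
      rw [this]
      exact Ct.mul_mem hc (hCtn.conj_mem _ (Ct.inv_mem hc) p)
    have h3 : n * (c * p) = n * (c * p * c⁻¹ * p⁻¹ * (p * c * p⁻¹)) * p := by group
    rw [h3]
    have hpcp : p * c * p⁻¹ ∈ Ct := hCtn.conj_mem c hc p
    exact Subgroup.mul_mem _ (Subgroup.mul_mem _ (Subgroup.mem_sup_left hn)
      (Subgroup.mem_sup_right (Ct.mul_mem hcpc hpcp))) (Subgroup.mem_sup_left (hPN hp))
  intro hd
  apply hodd2
  have h1 : Ct.index = Ct.relIndex (Subgroup.normalizer (P : Set G)) := by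
    rw [← Subgroup.relIndex_sup_right, htop, Subgroup.relIndex_top_right]
  rw [h1] at hd
  exact hd.trans (Subgroup.relIndex_dvd_card _ _)

end Cfsg.Agent.Lib.AllInv
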