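import Mathlib
import Cfsg.Agent.Lib.AllInv.Core

set_option autoImplicit false
set_option linter.unusedSectionVars false
set_option linter.unusedVariables false
set_option linter.style.haveILetI false

namespace Cfsg.Agent.Lib.AllInv

open scoped commutatorElement
open Cfsg Cfsg.Agent.Lib.Basic.PCore

variable {G : Type*} [Group G]

/-- A Sylow `2`-subgroup has a complement in its normalizer. -/
theorem exists_complement [Finite G] (S : Sylow 2 G) :
    ∃ L : Subgroup G, L ≤ Subgroup.normalizer ((S : Subgroup G) : Set G) ∧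
      (Nat.card L).Coprime (Nat.card (S : Subgroup G)) ∧
      ∀ n ∈ Subgroup.normalizer ((S : Subgroup G) : Set G),
        ∃ s ∈ (S : Subgroup G), ∃ l ∈ L, n = s * l := by
  classical
  haveI : Fact (Nat.Prime 2) := ⟨Nat.prime_two⟩
  set N := Subgroup.normalizer ((S : Subgroup G) : Set G) with hN
  have hSN : (S : Subgroup G) ≤ N := Subgroup.le_normalizer
  haveI hSnorm : ((S : Subgroup G).subgroupOf N).Normal :=
    Subgroup.normal_in_normalizer
  have h1 : Nat.card ((S : Subgroup G).subgroupOf N) = Nat.card (S : Subgroup G) :=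
    Nat.card_congr (Subgroup.subgroupOfEquivOfLe hSN).toEquiv
  have h2 : ((S : Subgroup G).subgroupOf N).index = (S : Subgroup G).relIndex N := rfl
  have h3 : (S : Subgroup G).relIndex N ∣ (S : Subgroup G).index :=
    Subgroup.relIndex_dvd_index_of_le hSN
  have hcop : (Nat.card ((S : Subgroup G).subgroupOf N)).Coprime ((S : Subgroup G).subgroupOf N).index := by
    rw [h1, h2]
    obtain ⟨n, hn⟩ := IsPGroup.iff_card.1 S.isPGroup'
    rw [hn]
    apply Nat.Coprime.pow_left
    rw [Nat.Prime.coprime_iff_not_dvd Nat.prime_two]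
    intro hd
    exact S.not_dvd_index (hd.trans h3)
  obtain ⟨L', hL'⟩ := Subgroup.exists_right_complement'_of_coprime hcop
  refine ⟨L'.map N.subtype, ?_, ?_, ?_⟩
  · rintro _ ⟨x, -, rfl⟩
    exact x.2
  · rw [Subgroup.card_map_of_injective N.subtype_injective, ← hL'.symm.index_eq_card, ← h1]
    exact hcop.symm
  · intro n hn
    obtain ⟨⟨a, b⟩, hab, -⟩ := Subgroup.IsComplement.existsUnique hL' (⟨n, hn⟩ : N)
    refine ⟨a, ?_, b, ⟨b, b.2, rfl⟩, ?_⟩
    · exact Subgroup.mem_subgroupOf.1 a.2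
    · have := congrArg Subtype.val hab
      exact this.symm

/-- The main theorem in the case of a trivial odd core. -/
theorem core_normal [Finite G] (hsol : Group.IsSolvable G) (hcore : pPrimeCore 2 G = ⊥)
    (hconj : ∀ x y : G, x ≠ 1 → x * x = 1 → y ≠ 1 → y * y = 1 → IsConj x y)
    (v w : G) (hvw : v ≠ w) (hv : v ≠ 1) (hvv : v * v = 1) (hw : w ≠ 1) (hww : w * w = 1) :
    (∀ S : Sylow 2 G, (S : Subgroup G) ≤ pCore 2 G) ∧
      (∀ x : G, x * x = 1 → ∀ r ∈ pCore 2 G, r * x = x * r) := by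
  classical
  haveI : Fact (Nat.Prime 2) := ⟨Nat.prime_two⟩
  haveI : Nontrivial G := ⟨⟨v, 1, hv⟩⟩
  have hpsol : IsPSolvable 2 G := by
    haveI := hsol
    exact Cfsg.Agent.Lib.Solvable.PSeries.isPSolvable_of_solvable
  have hRne : pCore 2 G ≠ ⊥ := by
    rcases Cfsg.Agent.Lib.Solvable.PSeries.isPSolvable_core_ne_bot hpsol with h | h
    · exact h
    · exact absurd hcore h
  have hcent := Cfsg.Agent.Lib.Solvable.PSeries.centralizer_pCore_le hpsol hcore
  obtain ⟨V, hVn, hV, hVc, hVR⟩ := exists_V hRne hconj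
  refine ⟨?_, ?_⟩
  swap
  · intro x hx r hr
    exact hVc x ((hV x).2 hx) r hr
  set R := pCore 2 G with hR
  haveI hRn : R.Normal := pCore_normal 2 G
  have hvV : v ∈ V := (hV v).2 hvv
  have hwV : w ∈ V := (hV w).2 hww
  obtain ⟨C, h, D, hself⟩ := exists_CD hVn hV hVc hVR hRne hconj ⟨v, hvV, hv⟩
  haveI hCn : C.Normal := D.Cn
  have hodd := centralizer_odd_index hsol hVn hV hconj v w hvw hv hvv hw hww
  haveI hCtn : (Subgroup.centralizer (V : Set G)).Normal := Subgroup.normal_centralizer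
  intro S
  by_contra hSR
  -- `S` centralizes `V`
  have hSC : (S : Subgroup G) ≤ Subgroup.centralizer (V : Set G) := by
    intro s hs
    obtain ⟨k, hk⟩ := S.isPGroup' ⟨s, hs⟩
    have : s ^ (2 ^ k) = 1 := by simpa using congrArg Subtype.val hk
    exact mem_of_odd_index hodd this
  have hRS : R ≤ (S : Subgroup G) := pCore_le_sylow S
  -- an element of order `2` modulo `R`
  obtain ⟨y, hyS, hyR, hyy⟩ : ∃ y ∈ (S : Subgroup G), y ∉ R ∧ y * y ∈ R := by
    obtain ⟨s, hs, hsR⟩ := SetLike.not_le_iff_exists.1 hSR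
    -- a 2-power argument
    obtain ⟨k, hk⟩ := S.isPGroup' ⟨s, hs⟩
    have hk' : s ^ (2 ^ k) = 1 := by simpa using congrArg Subtype.val hk
    have hex : ∃ j, s ^ (2 ^ j) ∈ R := ⟨k, by rw [hk']; exact R.one_mem⟩
    have hj0 : Nat.find hex ≠ 0 := by
      intro h0
      have := Nat.find_spec hex
      rw [h0] at this
      simp only [pow_zero, pow_one] at this
      exact hsR this
    obtain ⟨j, hj⟩ := Nat.exists_eq_succ_of_ne_zero hj0
    have hmin := Nat.find_min hex (m := j) (by omega)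
    have hspec := Nat.find_spec hex
    rw [hj, pow_succ, pow_mul, sq] at hspec
    exact ⟨s ^ (2 ^ j), S.toSubgroup.pow_mem hs _, hmin, hspec⟩
  -- the fibres have the same size
  set k := Nat.card {x // qbar D x = (⟨v, hvV⟩ : ↥V)} with hk
  have hfib : ∀ u : ↥V, u ≠ 1 → Nat.card {x // qbar D x = u} = k := by
    intro u hu
    have hu1 : (u : G) ≠ 1 := fun h0 => hu (Subtype.ext h0)
    obtain ⟨g, hg⟩ := isConj_iff.1 (hconj v u hv hvv hu1 ((hV _).1 u.2))
    exact (fiber_card D (⟨v, hvV⟩ : ↥V) u g hg).symm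
  have hY2 : 2 < Nat.card ↥V := by
    haveI : Fintype ↥V := Fintype.ofFinite _
    rw [Nat.card_eq_fintype_card, Fintype.two_lt_card_iff]
    refine ⟨1, ⟨v, hvV⟩, ⟨w, hwV⟩, ?_, ?_, ?_⟩
    · intro h0
      exact hv (congrArg Subtype.val h0).symm
    · intro h0
      exact hw (congrArg Subtype.val h0).symm
    · intro h0
      exact hvw (congrArg Subtype.val h0)
  -- the action
  let ρ : ↥(S : Subgroup G) →* MulAut (XX C) := (rho C).comp (S : Subgroup G).subtype
  have hρ : ∀ (s : ↥(S : Subgroup G)) x, ρ s x = rho C (s : G) x := fun s x => rfl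
  have hq : ∀ (s : ↥(S : Subgroup G)) x, qbar D (ρ s x) = qbar D x := by
    intro s x
    apply Subtype.ext
    rw [hρ, qbar_rho]
    have := Subgroup.mem_centralizer_iff.1 (hSC s.2) _ (qbar D x).2
    rw [← this]
    group
  -- the uniqueness
  have hgood : ∀ z ∈ (S : Subgroup G), z ∉ R → z * z ∈ R →
      (∀ x, rho C z (rho C z x) = x) ∧ ∃ x, rho C z x ≠ x := by
    intro z hzS hzR hzz
    constructor
    · intro x
      rw [← MulAut.mul_apply, ← map_mul]
      exact rho_eq_self_of_mem D hzz x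
    · by_contra hcon
      push Not at hcon
      apply hzR
      apply ker_le_pCore D hself hcent
      refine ⟨?_, hSC hzS⟩
      show z ∈ (rho C).ker
      rw [MonoidHom.mem_ker]
      ext x
      exact hcon x
  have huniq : ∀ z₁ ∈ (S : Subgroup G), z₁ ∉ R → z₁ * z₁ ∈ R →
      ∀ z₂ ∈ (S : Subgroup G), z₂ ∉ R → z₂ * z₂ ∈ R → z₁⁻¹ * z₂ ∈ R := by
    intro z₁ h1S h1R h1z z₂ h2S h2R h2z
    obtain ⟨a1, a2⟩ := hgood z₁ h1S h1R h1z
    obtain ⟨b1, b2⟩ := hgood z₂ h2S h2R h2z
    have hall := mul_unique (xx_sq D) (vv_sq D) (qbar D) (bbar D) (qbar_eq_one D) (qbar_mul D)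
      (bbar_mul_left D) (bbar_mul_right D) k hfib hY2 S.isPGroup' ρ hq
      ⟨z₁, h1S⟩ ⟨z₂, h2S⟩ a1 a2 b1 b2
    apply ker_le_pCore D hself hcent
    refine ⟨?_, (Subgroup.centralizer (V : Set G)).mul_mem
      ((Subgroup.centralizer (V : Set G)).inv_mem (hSC h1S)) (hSC h2S)⟩
    show z₁⁻¹ * z₂ ∈ (rho C).ker
    rw [MonoidHom.mem_ker]
    ext x
    rw [map_mul, MulAut.mul_apply, map_inv, MulAut.one_apply]
    have e : rho C z₁ x = rho C z₂ x := hall x
    rw [← e]
    simp
  -- the complement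
  obtain ⟨L, hLN, hLcop, hLdec⟩ := exists_complement S
  -- transitivity
  have htrans : ∀ a ∈ V, ∀ b ∈ V, a ≠ 1 → b ≠ 1 → ∃ l ∈ L, l * a * l⁻¹ = b := by
    intro a ha b hb ha1 hb1
    obtain ⟨g, hg⟩ := isConj_iff.1 (hconj a b ha1 ((hV _).1 ha) hb1 ((hV _).1 hb))
    have hac : ∀ c ∈ V, ∀ s ∈ (S : Subgroup G), c * s = s * c := by
      intro c hc s hs
      exact Subgroup.mem_centralizer_iff.1 (hSC hs) c hc
    obtain ⟨n, hn, hnX⟩ := Cfsg.Agent.Lib.Basic.SylowUtil.burnside_fusion S {a} g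
      (by
        rintro x rfl y hy
        exact hac x ha y hy)
      (by
        rintro x rfl y hy
        rw [hg]
        exact hac b hb y hy)
    have hna : n * a * n⁻¹ = b := by
      rw [hnX a rfl, hg]
    obtain ⟨s, hs, l, hl, rfl⟩ := hLdec n hn
    refine ⟨l, hl, ?_⟩
    have h1 : s⁻¹ * b * s = b := by
      have := hac b hb s hs
      rw [mul_assoc, this]
      group
    rw [← h1, ← hna]
    group
  -- the coset lemma
  have hLsol : Group.IsSolvable L := by
    haveI := hsol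
    infer_instance
  obtain ⟨c, ⟨hcS, hcL⟩, hcy⟩ := Cfsg.Agent.Lib.Coprime.Coset.exists_centralizer_mem_coset
    (A := L) (K := (S : Subgroup G)) (N := R) hLN hLcop (Or.inl hLsol) hRS
    (by
      rw [Subgroup.normalizer_eq_top]
      exact le_top) y hyS
    (by
      intro l hl
      have hl' := Subgroup.mem_normalizer_iff.1 (hLN hl)
      have hconjS : l * y * l⁻¹ ∈ (S : Subgroup G) := (hl' y).1 hyS
      apply huniq y hyS hyR hyy _ hconjS
      · intro h0
        apply hyR
        have := hRn.conj_mem _ h0 l⁻¹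
        simpa [mul_assoc] using this
      · have e : (l * y * l⁻¹) * (l * y * l⁻¹) = l * (y * y) * l⁻¹ := by group
        rw [e]
        exact hRn.conj_mem _ hyy l)
  have hcR : c ∉ R := by
    intro h0
    apply hyR
    have : y⁻¹ ∈ R := by
      have h1 := R.mul_mem hcy (R.inv_mem h0)
      simpa using h1
    simpa using R.inv_mem this
  have hc1 : c ≠ 1 := fun h0 => hcR (h0 ▸ R.one_mem)
  -- an involution centralized by `L`
  obtain ⟨t, ht1, htt, htL⟩ : ∃ t : G, t ≠ 1 ∧ t * t = 1 ∧ ∀ l ∈ L, l * t * l⁻¹ = t := by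
    obtain ⟨k, hk⟩ := S.isPGroup' ⟨c, hcS⟩
    have hk' : c ^ (2 ^ k) = 1 := by simpa using congrArg Subtype.val hk
    have hex : ∃ j, c ^ (2 ^ j) = 1 := ⟨k, hk'⟩
    have hj0 : Nat.find hex ≠ 0 := by
      intro h0
      have := Nat.find_spec hex
      rw [h0] at this
      simp only [pow_zero, pow_one] at this
      exact hc1 this
    obtain ⟨j, hj⟩ := Nat.exists_eq_succ_of_ne_zero hj0
    have hmin := Nat.find_min hex (m := j) (by omega)
    have hspec := Nat.find_spec hex
    rw [hj, pow_succ, pow_mul, sq] at hspec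
    refine ⟨c ^ (2 ^ j), hmin, hspec, ?_⟩
    intro l hl
    rw [← conj_pow]
    congr 1
    have := Subgroup.mem_centralizer_iff.1 hcL l hl
    rw [this]
    group
  have htV : t ∈ V := (hV t).2 htt
  -- a second involution
  obtain ⟨u, huV, hu1, hut⟩ : ∃ u ∈ V, u ≠ 1 ∧ u ≠ t := by
    by_cases h0 : v = t
    · exact ⟨w, hwV, hw, fun h1 => hvw (h0.trans h1.symm)⟩
    · exact ⟨v, hvV, hv, h0⟩
  obtain ⟨l, hl, hlt⟩ := htrans t htV u huV ht1 hu1
  rw [htL l hl] at hlt
  exact hut hlt.symm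

end Cfsg.Agent.Lib.AllInv
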