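import Mathlib
import Cfsg.Agent.Lib.AllInv.Norm

set_option autoImplicit false
set_option linter.unusedSectionVars false
set_option linter.unusedVariables false
set_option linter.style.haveILetI false

namespace Cfsg.Agent.Lib.AllInv

open scoped commutatorElement
open Cfsg Cfsg.Agent.Lib.Basic.PCore

/-- A finite abelian `2`-group with automorphisms transitive on involutions is homocyclic. -/
theorem homocyclic {A : Type*} [CommGroup A] [Finite A] (h2 : IsPGroup 2 A)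
    (ht : ∀ a b : A, a ≠ 1 → a * a = 1 → b ≠ 1 → b * b = 1 → ∃ f : A ≃* A, f a = b) :
    ∃ m r : ℕ, Nonempty (A ≃* (Fin r → Multiplicative (ZMod (2 ^ m)))) := by
  classical
  haveI : Fact (Nat.Prime 2) := ⟨Nat.prime_two⟩
  obtain ⟨ι, _, n, hn, ⟨e⟩⟩ := CommGroup.equiv_prod_multiplicative_zmod_of_finite A
  have hexp : ∃ m, ∀ a : A, a ^ (2 ^ m) = 1 := by
    obtain ⟨N, hN⟩ := IsPGroup.iff_card.1 h2
    exact ⟨N, fun a => by rw [← hN]; exact pow_card_eq_one'⟩
  obtain ⟨m, hm, hmin⟩ : ∃ m, (∀ a : A, a ^ (2 ^ m) = 1) ∧ ∀ j < m, ∃ b : A, b ^ (2 ^ j) ≠ 1 := by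
    refine ⟨Nat.find hexp, Nat.find_spec hexp, ?_⟩
    intro j hj
    have := Nat.find_min hexp hj
    push Not at this
    exact this
  have hnm : ∀ i, n i = 2 ^ m := by
    intro i
    let c : A → ZMod (n i) := fun a => Multiplicative.toAdd (e a i)
    have hc : ∀ (a : A) (t : ℕ), c (a ^ t) = (t : ZMod (n i)) * c a := by
      intro a t
      show Multiplicative.toAdd (e (a ^ t) i) = _
      rw [map_pow, Pi.pow_apply, toAdd_pow, nsmul_eq_mul]
    have hc1 : c 1 = 0 := by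
      show Multiplicative.toAdd (e 1 i) = _
      rw [map_one]
      rfl
    set a₀ : A := e.symm (Pi.mulSingle i (Multiplicative.ofAdd 1)) with ha₀
    have hca : c a₀ = 1 := by
      show Multiplicative.toAdd (e a₀ i) = _
      rw [ha₀, MulEquiv.apply_symm_apply, Pi.mulSingle_eq_same]
      rfl
    have hcp : ∀ t : ℕ, c (a₀ ^ t) = (t : ZMod (n i)) := by
      intro t
      rw [hc, hca, mul_one]
    have hdvd : n i ∣ 2 ^ m := by
      rw [← ZMod.natCast_eq_zero_iff, ← hcp, hm, hc1]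
    obtain ⟨k, hk, hnk⟩ := (Nat.dvd_prime_pow Nat.prime_two).1 hdvd
    have hk0 : k ≠ 0 := by
      rintro rfl
      have := hn i
      rw [hnk] at this
      simp at this
    obtain ⟨k', rfl⟩ : ∃ k', k = k' + 1 := ⟨k - 1, by omega⟩
    by_cases hkm : k' + 1 = m
    · rw [hnk, hkm]
    exfalso
    have hkm' : k' + 1 < m := lt_of_le_of_ne hk hkm
    obtain ⟨m', rfl⟩ : ∃ m', m = m' + 1 := ⟨m - 1, by omega⟩
    obtain ⟨b, hb⟩ := hmin m' (by omega)
    set w := b ^ (2 ^ m') with hw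
    have hww : w * w = 1 := by
      rw [hw, ← pow_add, ← two_mul, ← pow_succ', hm]
    set z := a₀ ^ (2 ^ k') with hz
    have hcz : c z = ((2 ^ k' : ℕ) : ZMod (n i)) := hcp _
    have hz1 : z ≠ 1 := by
      intro h0
      rw [h0, hc1, eq_comm, ZMod.natCast_eq_zero_iff, hnk, Nat.pow_dvd_pow_iff_le_right'] at hcz
      omega
    have hzz : z * z = 1 := by
      rw [hz, ← pow_add, ← two_mul, ← pow_succ']
      apply e.injective
      rw [map_pow, map_one, ha₀, MulEquiv.apply_symm_apply, ← Pi.mulSingle_pow]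
      have : (Multiplicative.ofAdd (1 : ZMod (n i))) ^ (2 ^ (k' + 1)) = 1 := by
        apply Multiplicative.toAdd.injective
        rw [toAdd_pow, toAdd_ofAdd, nsmul_one, toAdd_one, ZMod.natCast_eq_zero_iff, hnk]
      rw [this, Pi.mulSingle_one]
    obtain ⟨f, hf⟩ := ht w z hb hww hz1 hzz
    have h1 : c z = 0 := by
      rw [← hf, hw, map_pow, hc]
      have : ((2 ^ m' : ℕ) : ZMod (n i)) = 0 := by
        rw [ZMod.natCast_eq_zero_iff, hnk]
        exact pow_dvd_pow 2 (by omega)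
      rw [this, zero_mul]
    rw [h1, eq_comm, ZMod.natCast_eq_zero_iff, hnk, Nat.pow_dvd_pow_iff_le_right'] at hcz
    omega
  obtain rfl : n = fun _ => 2 ^ m := funext hnm
  exact ⟨m, Fintype.card ι, ⟨e.trans (MulEquiv.arrowCongr (Fintype.equivFin ι) (MulEquiv.refl _))⟩⟩


variable {G : Type*} [Group G]

/-- Involutions lift modulo the odd core. -/
lemma lift_invol [Finite G] (a : G ⧸ pPrimeCore 2 G) (ha : a * a = 1) :
    ∃ x : G, (x : G ⧸ pPrimeCore 2 G) = a ∧ x * x = 1 := by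
  classical
  obtain ⟨g, rfl⟩ := QuotientGroup.mk_surjective a
  have h0 : orderOf g ≠ 0 := (orderOf_pos g).ne'
  obtain ⟨e, m, hm, hem⟩ := Nat.exists_eq_two_pow_mul_odd h0
  have hgm : ((g ^ m : G) : G ⧸ pPrimeCore 2 G) = (g : G ⧸ pPrimeCore 2 G) := by
    obtain ⟨t, rfl⟩ := hm
    rw [QuotientGroup.mk_pow, pow_succ, pow_mul, sq, ha, one_pow, one_mul]
  refine ⟨g ^ m, hgm, ?_⟩
  have h1 : ((g ^ m * g ^ m : G) : G ⧸ pPrimeCore 2 G) = 1 := by
    rw [QuotientGroup.mk_mul, hgm, ha]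
  have h2 : g ^ m * g ^ m ∈ pPrimeCore 2 G := (QuotientGroup.eq_one_iff _).1 h1
  have h3 : (g ^ m * g ^ m) ^ (2 ^ e) = 1 := by
    rw [← sq, ← pow_mul, ← pow_mul]
    have : m * (2 * 2 ^ e) = orderOf g * 2 := by
      rw [hem]
      ring
    rw [this, pow_mul, pow_orderOf_eq_one, one_pow]
  have h4 : orderOf (g ^ m * g ^ m) ∣ Nat.card (pPrimeCore 2 G) := Subgroup.orderOf_dvd_natCard _ h2
  have h5 : orderOf (g ^ m * g ^ m) ∣ 2 ^ e := orderOf_dvd_of_pow_eq_one h3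
  have h6 : (Nat.card (pPrimeCore 2 G)).Coprime (2 ^ e) :=
    Nat.Coprime.pow_right e (Cfsg.Agent.Lib.Solvable.PSeries.pPrimeCore_coprime 2)
  exact orderOf_eq_one_iff.1 (Nat.eq_one_of_dvd_coprimes h6 h4 h5)

/-- Main consequences: `2`-length one and centrality of involutions in a Sylow subgroup. -/
theorem all_inv_main [Finite G] (hsol : Group.IsSolvable G) (S : Sylow 2 G)
    (x y : G) (hx : x ∈ (S : Subgroup G)) (hy : y ∈ (S : Subgroup G)) (hxy : x ≠ y)
    (hx1 : x ≠ 1) (hxx : x * x = 1) (hy1 : y ≠ 1) (hyy : y * y = 1)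
    (hconj : ∀ x y : G, x ≠ 1 → x * x = 1 → y ≠ 1 → y * y = 1 → IsConj x y) :
    Cfsg.PLengthLE 2 1 G ∧
      ∀ t ∈ (S : Subgroup G), t * t = 1 → ∀ s ∈ (S : Subgroup G), t * s = s * t := by
  classical
  haveI : Fact (Nat.Prime 2) := ⟨Nat.prime_two⟩
  set O := pPrimeCore 2 G with hO
  haveI hOn : O.Normal := pPrimeCore_normal 2 G
  have hOS : ∀ z ∈ O, z ∈ (S : Subgroup G) → z = 1 := by
    intro z hz hzS
    obtain ⟨k, hk⟩ := S.isPGroup' ⟨z, hzS⟩
    have hk' : z ^ (2 ^ k) = 1 := by simpa using congrArg Subtype.val hk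
    have h4 : orderOf z ∣ Nat.card O := Subgroup.orderOf_dvd_natCard _ hz
    have h5 : orderOf z ∣ 2 ^ k := orderOf_dvd_of_pow_eq_one hk'
    have h6 : (Nat.card O).Coprime (2 ^ k) :=
      Nat.Coprime.pow_right k (Cfsg.Agent.Lib.Solvable.PSeries.pPrimeCore_coprime 2)
    exact orderOf_eq_one_iff.1 (Nat.eq_one_of_dvd_coprimes h6 h4 h5)
  have hmk1 : ∀ z ∈ (S : Subgroup G), z ≠ 1 → (z : G ⧸ O) ≠ 1 := by
    intro z hz hz1 h0
    exact hz1 (hOS z ((QuotientGroup.eq_one_iff z).1 h0) hz)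
  have hsolq : Group.IsSolvable (G ⧸ O) := by
    haveI := hsol
    infer_instance
  have hcoreq : pPrimeCore 2 (G ⧸ O) = ⊥ := Cfsg.Agent.Lib.Solvable.PSeries.pPrimeCore_quotient 2
  have hconjq : ∀ a b : G ⧸ O, a ≠ 1 → a * a = 1 → b ≠ 1 → b * b = 1 → IsConj a b := by
    intro a b ha1 ha hb1 hb
    obtain ⟨a', rfl, ha'⟩ := lift_invol a ha
    obtain ⟨b', rfl, hb'⟩ := lift_invol b hb
    have ha'1 : a' ≠ 1 := by
      rintro rfl
      exact ha1 (QuotientGroup.mk_one _)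
    have hb'1 : b' ≠ 1 := by
      rintro rfl
      exact hb1 (QuotientGroup.mk_one _)
    exact (QuotientGroup.mk' O).map_isConj (hconj a' b' ha'1 ha' hb'1 hb')
  have hxq : (x : G ⧸ O) * (x : G ⧸ O) = 1 := by
    rw [← QuotientGroup.mk_mul, hxx, QuotientGroup.mk_one]
  have hyq : (y : G ⧸ O) * (y : G ⧸ O) = 1 := by
    rw [← QuotientGroup.mk_mul, hyy, QuotientGroup.mk_one]
  have hxyq : (x : G ⧸ O) ≠ (y : G ⧸ O) := by
    intro h0
    rw [QuotientGroup.eq] at h0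
    have := hOS _ h0 (S.toSubgroup.mul_mem (S.toSubgroup.inv_mem hx) hy)
    apply hxy
    rw [inv_mul_eq_one] at this
    exact this
  obtain ⟨hSyl, hcomm⟩ := core_normal hsolq hcoreq hconjq (x : G ⧸ O) (y : G ⧸ O) hxyq
    (hmk1 x hx hx1) hxq (hmk1 y hy hy1) hyq
  haveI hRn : (pCore 2 (G ⧸ O)).Normal := pCore_normal 2 _
  have hodd : ¬ 2 ∣ (pCore 2 (G ⧸ O)).index := by
    obtain ⟨T⟩ : Nonempty (Sylow 2 (G ⧸ O)) := inferInstance
    intro hd
    exact T.not_dvd_index (hd.trans (Subgroup.index_dvd_of_le (hSyl T)))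
  constructor
  · show (upperPSeries 2 G (2 + 1)).1 = ⊤
    rw [Cfsg.Agent.Lib.Solvable.PSeries.upper_succ, Cfsg.Agent.Lib.Solvable.PSeries.stepAt, if_pos (by decide),
      eq_top_iff]
    apply Cfsg.Agent.Lib.Solvable.PSeries.le_stepQ_of_relIndex _ inferInstance
    rw [Subgroup.relIndex_top_right, Cfsg.Agent.Lib.Solvable.PSeries.upper_two, pPrimePCore,
      Subgroup.index_comap_of_surjective _ (QuotientGroup.mk'_surjective _)]
    exact ((Nat.Prime.coprime_iff_not_dvd Nat.prime_two).2 hodd).symm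
  · intro t ht htt s hs
    have htq : (t : G ⧸ O) * (t : G ⧸ O) = 1 := by
      rw [← QuotientGroup.mk_mul, htt, QuotientGroup.mk_one]
    have hsR : (s : G ⧸ O) ∈ pCore 2 (G ⧸ O) := by
      obtain ⟨k, hk⟩ := S.isPGroup' ⟨s, hs⟩
      have hk' : s ^ (2 ^ k) = 1 := by simpa using congrArg Subtype.val hk
      apply mem_of_odd_index hodd (k := k)
      rw [← QuotientGroup.mk_pow, hk', QuotientGroup.mk_one]
    have h1 := hcomm _ htq _ hsR
    rw [← QuotientGroup.mk_mul, ← QuotientGroup.mk_mul, QuotientGroup.eq] at h1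
    have h2 : (s * t)⁻¹ * (t * s) ∈ (S : Subgroup G) :=
      S.toSubgroup.mul_mem (S.toSubgroup.inv_mem (S.toSubgroup.mul_mem hs ht)) (S.toSubgroup.mul_mem ht hs)
    have h3 := hOS _ h1 h2
    rw [inv_mul_eq_one] at h3
    exact h3.symm

end Cfsg.Agent.Lib.AllInv
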